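import Mathlib

/-! Finite subgroups of `SO₆(K)` containing `-1` all of whose involutions are bireflections up to sign. -/

set_option autoImplicit false

namespace Cfsg.Agent.O6

open Matrix

abbrev W (K : Type*) := Fin 6 → K

abbrev M6 (K : Type*) := Matrix (Fin 6) (Fin 6) K

variable {Γ K : Type*} [Group Γ] [Field K]

/-- the reflection in a nonsingular vector -/
def rf (u : W K) : M6 K := 1 - (2 / (u ⬝ᵥ u)) • vecMulVec u u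

/-- the squared golden ratios -/
def Gold (b : K) : Prop := b ^ 2 - 3 * b + 1 = 0 ∧ (5 : K) ≠ 0

/-- allowed values of four times the squared cosine -/
def Al (b : K) : Prop := b = 0 ∨ b = 1 ∨ Gold b

/-- orthonormal bases -/
def ON (f : Fin 6 → W K) : Prop := ∀ i j, f i ⬝ᵥ f j = if i = j then 1 else 0

/-- the standing hypotheses -/
structure OG (Γ K : Type*) [Group Γ] [Field K] where
  φ : Γ →* M6 K
  inj : Function.Injective φ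
  two : (2 : K) ≠ 0
  h : K
  hh : 2 * h * h = 1
  orth : ∀ x, (φ x)ᵀ * φ x = 1
  det : ∀ x, (φ x).det = 1
  m : Γ
  hm : φ m = -1
  h2 : ∀ x, φ x * φ x ≠ -1
  h3 : ∀ x, φ x * φ x + φ x + 1 = 0 → x = 1
  rot : ∀ x (u v : W K), u ⬝ᵥ u ≠ 0 → v ⬝ᵥ v ≠ 0 → φ x = rf u * rf v →
    x = 1 ∨ Al (4 * (u ⬝ᵥ v) ^ 2 / (u ⬝ᵥ u * (v ⬝ᵥ v)))
  sq : ∀ x y (v v' c : W K), c ≠ 0 → c ⬝ᵥ c = 0 → v ⬝ᵥ c = 0 → v' ⬝ᵥ c = 0 → v ⬝ᵥ v = 1 → v' ⬝ᵥ v' = 1 →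
    φ x = rf v * rf (v + c) → φ y = rf v' * rf (v' + c) → y = 1 ∨ y = x ∨ y = x⁻¹
  irr : ∀ f : Fin 6 → W K, ON f → ∃ x, φ x * (rf (f 0) * rf (f 1) * rf (f 2)) ≠ rf (f 0) * rf (f 1) * rf (f 2) * φ x ∧
    φ x * (rf (f 0) * rf (f 1) * rf (f 2)) ≠ -(rf (f 0) * rf (f 1) * rf (f 2) * φ x)
  simp : ∀ N : Subgroup Γ, N.Normal → (∀ x ∈ N, x = 1 ∨ x = m) ∨ ∀ x, x ∈ N ∨ m * x ∈ N

namespace OG

variable (G : OG Γ K)

/-- the product of the reflections in `u` and `v` lies in the group -/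
def B (u v : W K) : Prop := ∃ x, G.φ x = rf u * rf v

/-- a frame: an orthonormal basis all of whose even sign changes lie in the group -/
def Fr (f : Fin 6 → W K) : Prop := ON f ∧ ∀ i j, G.B (f i) (f j)

/-- `x` is monomial with respect to `f`, with permutation `σ` -/
def Mp (f : Fin 6 → W K) (x : Γ) (σ : Equiv.Perm (Fin 6)) : Prop :=
  ∀ i, G.φ x *ᵥ f i = f (σ i) ∨ G.φ x *ᵥ f i = -f (σ i)

/-- the partner basis -/
def pa (f : Fin 6 → W K) : Fin 6 → W K :=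
  ![G.h • (f 0 + f 1), G.h • (f 0 - f 1), G.h • (f 2 + f 3), G.h • (f 2 - f 3), G.h • (f 4 + f 5), G.h • (f 4 - f 5)]

/-- the four-group of even permutations fixing the pairs `01`, `23`, `45` -/
def V4b (σ : Equiv.Perm (Fin 6)) : Prop :=
  σ = 1 ∨ σ = Equiv.swap 0 1 * Equiv.swap 2 3 ∨ σ = Equiv.swap 0 1 * Equiv.swap 4 5 ∨ σ = Equiv.swap 2 3 * Equiv.swap 4 5

/-- the conclusion in the case of 2-rank four -/
def Out : Prop := ∃ f z, G.Fr f ∧ G.Fr (G.pa f) ∧ G.φ z = rf (f 0) * rf (f 1) ∧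
  (∀ x, x * z = z * x → ∃ σ, V4b σ ∧ G.Mp f x σ) ∧
  (∀ x, x * x = 1 → x ≠ 1 → x ≠ G.m → IsConj z x ∨ IsConj z (G.m * x)) ∧
  (∀ i j, i ≠ j → ∃ x σ, G.Mp f x σ ∧ (σ 0 = i ∧ σ 1 = j ∨ σ 0 = j ∧ σ 1 = i)) ∧
  (∀ i j, i ≠ j → ∃ x σ, G.Mp (G.pa f) x σ ∧ (σ 0 = i ∧ σ 1 = j ∨ σ 0 = j ∧ σ 1 = i))

end OG

/-- the statement of the rank four case -/
def RK4 (Γ K : Type*) [Group Γ] [Field K] : Prop := ∀ (G : OG Γ K) (f : Fin 6 → W K), G.Fr f → G.Out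

end Cfsg.Agent.O6
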