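import Cfsg.Agent.O6.R9
import Cfsg.Agent.H2.PL1
import Cfsg.Agent.H2.NH1

/-! The rank four case. -/

set_option autoImplicit false

namespace Cfsg.Agent.O6

open Matrix Equiv Subgroup

variable {Γ K : Type*} [Group Γ] [Field K]

theorem two_inv : ∀ m n k l : Fin 6, 2 ≤ m → 2 ≤ n → 2 ≤ k → 2 ≤ l → m ≠ n → k ≠ l → swap 0 1 * swap m n * (swap 0 1 * swap k l) ≠ 1 →
    (swap 0 1 * swap m n * (swap 0 1 * swap k l)) * (swap 0 1 * swap m n * (swap 0 1 * swap k l)) = 1 →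
    [0, 1, m, n, k, l].Nodup := by decide +kernel

namespace OG

variable {G H : OG Γ K}

theorem St.gd [Finite Γ] (s : G.St) {a b : Fin 6} (ab : a ≠ b) : G.Good a b := s.good H2.PL.a6gen H2.NH.noh ab

theorem St.cs [Finite Γ] (s : G.St) (v : VX G.X 1) {σ : P6} (hσ : σ ∈ G.X) (p : Pr σ 0 1 0 1) : Syn σ := by
  obtain ⟨x, m⟩ := hσ
  obtain ⟨z, hz⟩ := s.dg 0 (pi3 0)
  have hx := (s.pt v).gd (by decide) z x (pt_dg hz) (mul_inv_eq_iff_eq_mul.1 (m.conj_pr p hz hz))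
  refine Equiv.ext fun a => ?_
  obtain ⟨w, hw⟩ := s.dg a (pi3 a)
  exact vb_one _ _ (σ.injective.ne ((by decide : ∀ a, a ≠ pi3 a) a))
    ((pt_dg_Mo (m.dg hw)).uniq (conj_E hx (mo_dg (pt_dg hw))))

theorem St.inv_bi (s : G.St) {x : Γ} (hx : x ∈ G.M) (h : x * x = 1) (h1 : x ≠ 1) (h2 : x ≠ G.m) : G.Bi x ∨ G.Bi (G.m * x) := by
  have k : ∀ G : OG Γ K, x ∈ G.E → x ≠ G.m → G.Bi x ∨ G.Bi (G.m * x) := fun G hx h2 => by
    rcases E_cases hx with c | c | ⟨a, b, ab, c | c⟩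
    exacts [absurd c h1, absurd c h2, .inl (bi_dg ab c), .inr (bi_dg ab c)]
  obtain ⟨σ, m⟩ := hx
  rcases m.inv_cases s h with rfl | ⟨τ, rfl⟩
  · exact k G m h2
  · simpa using k (G.rl τ).pt ((rl_Mo.2 m).nf (.inr (.inl rfl)) (by decide) h) h2

theorem flip_tr {t x : Γ} {k l m n : Fin 6} (nd : [0, 1, k, l, m, n].Nodup) (ht : G.φ t = O6.dg 0 1)
    (hx : G.Mo x (swap k l * swap m n)) (b : G.Bi x) : ¬ G.Bi (t * x) := fun b' => by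
  obtain ⟨τ, t0, t1, rfl, rfl, rfl, rfl⟩ := ex6 nd
  obtain ⟨ε, -, e⟩ := rl_Mo.2 (show G.Mo x (τ * (swap 2 3 * swap 4 5) * τ⁻¹) by
    simpa only [← conj_mul, ← swap_apply_apply] using hx)
  have h1 := (rl_Bi (τ := τ).2 b).2
  have h2 := (rl_Bi (τ := τ).2 b').2
  rw [map_mul, rl_dg.2 (t0.symm ▸ t1.symm ▸ ht), O6.dg, e, sp_mul] at h2
  rw [e] at h1
  rw [Matrix.trace, Fin.sum_univ_six] at h1 h2
  simp [sp, sg2, swap_apply_def] at h1 h2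
  exact four.2 G.two (by linear_combination -h1 - h2)

theorem St.second [Finite Γ] (s : G.St) {g t : Γ} {c d : Fin 6} (cd : c ≠ d) (ht : (G.cg g).φ t = O6.dg c d)
    (mt : G.Mo t (swap 0 1 * swap 2 3)) : G.pt.St ∧ ∃ τ, VX G.pt.X τ ∧ ¬ Syn τ := by
  have bt := cg_Bi.1 (bi_dg cd ht)
  have te := mt.nf (.inr (.inl rfl)) (by decide) bt.1
  have nM : ¬ (G.cg g).E ≤ G.M := fun h => by
    have := conj_E (s.wc g h) (cg_E.1 (mo_dg ht))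
    exact absurd (mt.uniq (mem_E.1 (by simpa [mul_assoc] using this))) (by decide)
  obtain ⟨ν, rfl, rfl⟩ := ex2 cd
  have s2 := rl_St (τ := ν).2 (s.cg g)
  have h2 := rl_dg.2 ht
  have r2 := (rel_cg (G := G) g).trans (rel_rl ν)
  have e2 : ((G.cg g).rl ν).E = (G.cg g).E := rl_E
  generalize (G.cg g).rl ν = H at s2 h2 r2 e2
  rw [← e2] at nM
  have k : ∀ a z, G.φ z = O6.dg a (pi3 a) → z ∉ H.E ∧ t * z = z * t ∧ z ∈ H.M := fun a z hz => by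
    have c := E_comm te (mo_dg (pt_dg hz))
    exact ⟨fun h => nM fun x hx => s.gd ((by decide : ∀ a, a ≠ pi3 a) a) z x hz (E_comm hx h), c, s2.gd (by decide) t z h2 c.symm⟩
  obtain ⟨a, b, -, hab⟩ := (pt_Bi.2 bt).dg te
  have v := (by simpa only [pt_pt] using pt_dg_Mo hab : G.Mo _ _).uniq mt
  have k2 : ∀ a z, (a = 0 ∨ a = 2) → G.φ z = O6.dg a (pi3 a) → ∃ m n, 2 ≤ m ∧ 2 ≤ n ∧ m ≠ n ∧ H.Mo z (swap 0 1 * swap m n) :=
    fun i z hi hz => by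
      obtain ⟨n, c, σ, m⟩ := k i z hz
      have bz := bi_dg ((by decide : ∀ a, a ≠ pi3 a) i) hz
      rcases stab_inv σ (m.sq bz.1) (s2.even ⟨_, m⟩ (m.sq bz.1)) (pr_of_dg G.two (by decide) (by
        rw [← m.dg h2, ← c, mul_inv_cancel_right, h2])) with rfl | ⟨k, l, x, y, nd, rfl | rfl⟩
      · exact absurd m n
      · refine absurd (r2.Bi.2 (pt_Bi.1 ?_)) (flip_tr nd h2 m (r2.Bi.2 bz))
        obtain ⟨p, q, pq, e⟩ := (by decide +kernel : ∀ a b i : Fin 6, (i = 0 ∨ i = 2) → vb a * vb b = swap 0 1 * swap 2 3 →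
          ∃ p q, p ≠ q ∧ ∀ j, (if j = a then -1 else 1) * (if j = b then -1 else 1) * ((if j = i then -1 else 1) *
            if j = pi3 i then -1 else 1) = (if j = p then (-1 : ℤ) else 1) * if j = q then -1 else 1) a b i hi v
        refine bi_dg pq ?_
        rw [map_mul, hab, pt_dg hz, O6.dg, O6.dg, O6.dg, sp_mul, mul_one]
        congr 1; ext j
        have := congrArg (Int.cast : ℤ → K) (e j)
        push_cast at this; exact this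
      · simp only [List.nodup_cons, List.mem_cons, List.not_mem_nil, or_false, not_or] at nd
        exact ⟨x, y, by omega, by omega, by omega, m⟩
  obtain ⟨z1, h1⟩ := s.dg 0 (pi3 0)
  obtain ⟨z3, h3⟩ := s.dg 2 (pi3 2)
  obtain ⟨z5, h5⟩ := s.dg 4 (pi3 4)
  obtain ⟨m, n, a1, a2, a3, m1⟩ := k2 0 z1 (by simp) h1
  obtain ⟨p, q, b1, b2, b3, m3⟩ := k2 2 z3 (by simp) h3
  have e5 : z1 * z3 = G.m * z5 := G.inj (by
    rw [map_mul, map_mul, h1, h3, h5, G.hm, neg_one_mul, O6.dg, O6.dg, O6.dg, sp_mul, sp_neg, mul_one]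
    congr 1; ext i; fin_cases i <;> simp [sg2, pi3, swap_apply_def])
  obtain ⟨ρ, t0, t1, rfl, rfl, rfl, rfl⟩ := ex6 (two_inv m n p q a1 a2 b1 b2 a3 b3
    (fun e => (k 4 z5 h5).1 (Mo.m_mul (by rw [r2.m, ← e5, ← e]; exact m1.mul m3)))
    ((m1.mul m3).sq (E_sq (G.E.mul_mem (mo_dg h1) (mo_dg h3)))))
  have s3 := rl_St (τ := ρ).2 s2
  have n1 : (H.rl ρ).Mo z1 (swap 0 1 * swap 2 3) := rl_Mo.2 (by simpa only [← conj_mul, ← swap_apply_apply, t0, t1] using m1)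
  have n3 : (H.rl ρ).Mo z3 (swap 0 1 * swap 4 5) := rl_Mo.2 (by simpa only [← conj_mul, ← swap_apply_apply, t0, t1] using m3)
  have s4 := s3.pt (St.vx_of ⟨_, n3⟩ ⟨_, n1.mul n3⟩ rfl (by decide))
  have r4 := (r2.trans (rel_rl ρ)).trans rel_pt
  have le := r4.cl0 s s4 (fun x hx => s.gd (by decide) z1 x h1 (E_comm hx (n1.nf (.inr (.inl rfl)) (by decide) (E_sq (mo_dg h1)))))
    (mo_dg (pt_dg (a := 0) (rl_dg.2 (t0.symm ▸ t1.symm ▸ h2)))) mt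
  obtain ⟨s5, -, e4⟩ := (r4.symm.trans rel_pt).of_le s4 le
  refine ⟨s5, ?_⟩
  have r5 := rel_pt.symm.trans r2
  rcases r5.cl s5 s2 (by rw [e4, ← rl_E (τ := ρ)]; exact E_le_pt) with c | ⟨τ, c⟩
  · exact absurd (c.trans ptE_le) nM
  · obtain ⟨s6, -⟩ := (r5.symm.trans ((rel_rl τ).trans rel_pt)).of_le s2 c
    exact ⟨τ, fun σ v => rl_X.1 (by simpa using s6.vx σ v), fun sy =>
      nM (c.trans ((syn_E s5 s6 sy).trans (by rw [pt_pt]; exact E_le_M)))⟩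

theorem cj_Mp {Q : M6 K} {hQ : Ot Q} {x : Γ} {σ : P6} (h : (G.cj Q hQ).Mo x σ) : G.Mp (fun i => Q *ᵥ e i) x σ := fun i => by
  have : G.φ x *ᵥ Q *ᵥ e i = Q *ᵥ (G.cj Q hQ).φ x *ᵥ e i := by
    rw [cj_φ, mulVec_mulVec, mulVec_mulVec, ← mul_assoc, ← mul_assoc, hQ.right, one_mul]
  rw [this]; rcases h.col i with c | c <;> simp [c, mulVec_neg]

theorem cj_Fr {Q : M6 K} {hQ : Ot Q} (h : (G.cj Q hQ).St) : G.Fr fun i => Q *ᵥ e i :=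
  ⟨fun i j => by simp [hQ.dot, e_apply, eq_comm], fun i j => cj_B.1 (h i j)⟩

theorem out_of [Finite Γ] (r : Rel G H) (s : H.St) (s' : H.pt.St) (tr : ∀ a b, a ≠ b → ∃ σ ∈ H.X, Pr σ 0 1 a b)
    (st : ∀ σ ∈ H.X, Pr σ 0 1 0 1 → V4b σ) : G.Out := by
  obtain ⟨z, hz⟩ := s.dg 0 1
  have k1 : ∀ u, H.Bi u → u ∈ H.E → IsConj z u := fun u b hu => by
    obtain ⟨c, d, cd, e⟩ := b.dg hu
    obtain ⟨σ, ⟨n, m⟩, p⟩ := tr c d cd
    exact isConj_iff.2 ⟨n, m.conj_pr p hz e⟩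
  have k2 : ∀ u, H.Bi u → u ∈ H.M → u ∉ H.E → ∃ n, H.Mo (n * u * n⁻¹) (swap 2 3 * swap 4 5) := fun u b ⟨σ, m⟩ hu => by
    obtain ⟨τ, rfl⟩ := (m.inv_cases s b.1).resolve_left fun e => hu (mem_E.2 (e ▸ m))
    obtain ⟨ρ, ⟨n, mn⟩, p⟩ := tr (τ 4) (τ 5) (τ.injective.ne (by decide))
    have m1 := mn.inv.conj m
    have a : (ρ⁻¹ * (τ * (swap 0 1 * swap 2 3) * τ⁻¹) * ρ⁻¹⁻¹ : P6) 0 = 0 ∧
        (ρ⁻¹ * (τ * (swap 0 1 * swap 2 3) * τ⁻¹) * ρ⁻¹⁻¹ : P6) 1 = 1 := by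
      rcases p with ⟨x, y⟩ | ⟨x, y⟩ <;> simp [x, y, swap_apply_def, Equiv.symm_apply_eq]
    refine ⟨n⁻¹, ?_⟩
    rcases st _ ⟨_, m1⟩ (.inl a) with e | e | e | e <;> rw [e] at m1 a
    · exact absurd (by simpa [mul_assoc] using conj_E ⟨_, mn⟩ (mem_E.2 m1)) hu
    · exact absurd a.1 (by decide)
    · exact absurd a.1 (by decide)
    · exact m1
  obtain ⟨t, ⟨g, w, c, d, cd, hw, rfl⟩, tM, tE⟩ := H2.MN.mn s s.wc fun a b ab => s.gd ab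
  have bt := (bi_dg cd hw).conj g
  have k3 : ∀ u, H.Bi u → u ∈ H.M → IsConj z u := fun u b hu => by
    by_cases c : u ∈ H.E
    · exact k1 u b c
    obtain ⟨n, hn⟩ := k2 _ bt tM tE
    obtain ⟨n', hn'⟩ := k2 u b hu c
    exact ((((k1 w (bi_dg cd hw) (mo_dg hw)).trans (isConj_iff.2 ⟨g, rfl⟩)).trans (isConj_iff.2 ⟨n, rfl⟩)).trans
      (s.coset hn hn' (bt.conj n) (b.conj n'))).trans (isConj_iff.2 ⟨n', rfl⟩).symm
  obtain ⟨Q, hQ, rfl⟩ := r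
  have e1 : (G.cj Q hQ).pt = G.cj (Q * Q45 G.h) (hQ.mul (Q45_ot G.hh)) := cj_mul
  have e2 : G.pa (fun i => Q *ᵥ e i) = fun i => (Q * Q45 G.h) *ᵥ e i := by
    ext1 i
    rw [← mulVec_mulVec, Q45_mulVec]
    fin_cases i <;> simp only [pa, ← mulVec_add, ← mulVec_sub, ← mulVec_smul] <;> simp <;> congr 1 <;> ext j <;>
      fin_cases j <;> simp [e_apply]
  refine ⟨fun i => Q *ᵥ e i, z, cj_Fr s, e2 ▸ cj_Fr (e1 ▸ s'), by rw [hQ.rf2, rf_e2]; exact cj_eq.1 hz, fun x hx => ?_,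
    fun x h h1 h2 => ?_, fun i j ij => ?_, fun i j ij => ?_⟩
  · obtain ⟨σ, m⟩ := s.gd (by decide) z x hz hx
    exact ⟨σ, st σ ⟨x, m⟩ (pr_of_dg G.two (by decide) (by rw [← m.dg hz, hx, mul_inv_cancel_right, hz])), cj_Mp m⟩
  · obtain ⟨S, hS⟩ := (E_pgroup (G := G.cj Q hQ)).exists_le_sylow
    obtain ⟨y, hy⟩ := MH.exists_conj_mem_sylow Nat.prime_two S (k := 1) (by simpa [pow_two] using h)
    have hM := s.ne S S.isPGroup' hS hy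
    rcases s.inv_bi hM (MH.conj_mul_self.2 h) (by simpa using h1) (fun e => h2 (by
      rw [mul_inv_eq_iff_eq_mul, m_comm] at e; exact mul_left_cancel e)) with b | b
    · exact .inl ((k3 _ b hM).trans (isConj_iff.2 ⟨y, rfl⟩).symm)
    · exact .inr ((k3 _ b (mul_mem (E_le_M m_mem_E) hM)).trans (isConj_iff.2 ⟨y, by
        rw [← mul_assoc y, ← G.m_comm]; simp [mul_assoc]⟩).symm)
  · obtain ⟨σ, ⟨x, m⟩, p⟩ := tr i j ij
    exact ⟨x, σ, cj_Mp m, p⟩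
  · obtain ⟨u, hu⟩ := s'.dg i j
    obtain ⟨y, rfl⟩ := isConj_iff.1 (k3 u (pt_Bi.1 (bi_dg ij hu)) (ptE_le (mo_dg hu)))
    obtain ⟨σ, ⟨x, m⟩, p⟩ := s'.fus' (by decide) (pt_dg (a := 0) hz) hu
    exact ⟨x, σ, e2 ▸ cj_Mp (e1 ▸ m), p⟩

end OG

open OG in
theorem rk4 [Finite Γ] : RK4 Γ K := fun G f ⟨h1, h2⟩ => by
  have hQ : Ot (Matrix.of fun i j => f j i) := by
    ext i j; rw [mul_apply, one_apply, ← h1]; rfl
  have s : (G.cj _ hQ).St := fun i j => cj_B.2 (by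
    convert h2 i j using 1 <;> ext k <;> rw [mulVec_e] <;> rfl)
  obtain ⟨t, ⟨g, w, c, d, cd, hw, rfl⟩, ⟨σ, m⟩, n⟩ := H2.MN.mn s s.wc fun a b ab => s.gd ab
  obtain ⟨τ, rfl⟩ := (m.inv_cases s ((bi_dg cd hw).conj g).1).resolve_left fun e => n (mem_E.2 (e ▸ m))
  have s1 := rl_St (τ := τ).2 s
  obtain ⟨s2, ν, v, sy⟩ := s1.second (g := g) (τ⁻¹.injective.ne cd)
    (by rw [cg_φ, rl_dg]; simpa [mul_assoc] using hw) (rl_Mo.2 m)
  have s3 : ((G.cj _ hQ).rl τ).pt.pt.St := by rwa [pt_pt]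
  obtain ⟨tr, st⟩ := H2.PL.pl _ (fun σ => s2.even) s3.vx ν v sy fun ρ v σ hσ p =>
    (rl_St (τ := ρ).2 s2).cs (fun σ h => by simpa [rl_X] using v σ h) (rl_X.2 (by simpa [mul_assoc] using hσ))
      (p.imp (fun ⟨a, b⟩ => by simp [a, b]) fun ⟨a, b⟩ => by simp [a, b])
  exact out_of (Rel.trans ⟨_, hQ, rfl⟩ ((rel_rl τ).trans rel_pt)) s2 s3 tr st

end Cfsg.Agent.O6
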