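import Cfsg.Agent.O6.R5

/-! Statements of the sub-packages of the rank four case. -/

set_option autoImplicit false

namespace Cfsg.Agent.O6

open Matrix Equiv

/-- the partner involution -/
def pi3 : P6 := swap 0 1 * swap 2 3 * swap 4 5

/-- the stabiliser of the syntheme `01|23|45` -/
def Syn (σ : P6) : Prop := σ * pi3 = pi3 * σ

instance (σ : P6) : Decidable (Syn σ) := by unfold Syn; infer_instance
instance (σ : P6) : Decidable (OG.V4b σ) := by unfold OG.V4b; infer_instance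
instance (σ : P6) (a b c d : Fin 6) : Decidable (OG.Pr σ a b c d) := by unfold OG.Pr; infer_instance

/-- `X` contains the four-group of the syntheme `ν(01|23|45)` -/
def VX (X : Subgroup P6) (ν : P6) : Prop := ∀ σ, OG.V4b σ → ν * σ * ν⁻¹ ∈ X

/-- generation of `A₆` -/
def A6gen : Prop := ∀ X : Subgroup P6, (∀ k l, (k = 2 ∨ k = 3) → (l = 4 ∨ l = 5) → swap 0 1 * swap k l ∈ X) → VX X 1 →
  ∀ ρ ∈ X, ∀ a b, (a = 0 ∨ a = 1) → b ≠ 0 → b ≠ 1 → OG.Pr ρ 0 1 a b → ∀ σ : P6, Perm.sign σ = 1 → σ ∈ X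

/-- two synthemes -/
def PL : Prop := ∀ X : Subgroup P6, (∀ σ ∈ X, σ * σ = 1 → Perm.sign σ = 1) → VX X 1 → ∀ τ, VX X τ → ¬ Syn τ →
  (∀ ν, VX X ν → ∀ σ ∈ X, OG.Pr σ (ν 0) (ν 1) (ν 0) (ν 1) → Syn (ν⁻¹ * σ * ν)) →
  (∀ a b, a ≠ b → ∃ σ ∈ X, OG.Pr σ 0 1 a b) ∧ ∀ σ ∈ X, OG.Pr σ 0 1 0 1 → OG.V4b σ

variable {Γ K : Type*} [Group Γ] [Field K]

/-- `2`-subgroups over `E` are monomial -/
def OG.NE (G : OG Γ K) : Prop := ∀ S : Subgroup Γ, IsPGroup 2 S → G.E ≤ S → S ≤ G.M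

/-- `M` controls fusion in `E` -/
def OG.FUS (G : OG Γ K) : Prop := ∀ z ∈ G.E, G.Bi z → ∀ g, g * z * g⁻¹ ∈ G.E → ∃ n ∈ G.M, n * z * n⁻¹ = g * z * g⁻¹

/-- the dichotomy, when there are no roots of type `D₄` -/
def OG.DI (G : OG Γ K) : Prop := ∀ a b, a ≠ b →
  (∀ i j k, G.Hs i j k → i = a ∨ i = b ∨ j = a ∨ j = b ∨ k = a ∨ k = b) → G.Good a b

/-- no roots of type `H₃` -/
def NOH (Γ K : Type*) [Group Γ] [Field K] : Prop := ∀ G : OG Γ K, G.St → G.NE → G.FUS → G.DI →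
  (∀ a b, a ≠ b → ¬ G.Yr a b) → ∀ i j k, ¬ G.Hs i j k

end Cfsg.Agent.O6
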