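import Cfsg.Agent.O6.R1

/-! Finite facts on permutations of six points. -/

set_option autoImplicit false

namespace Cfsg.Agent.O6

open Equiv

theorem bool_cases : ∀ b : Fin 6 → Bool, (∏ i, if b i then (-1 : ℤ) else 1) = -1 ∨ (∀ i, b i = false) ∨ (∀ i, b i = true) ∨
      ∃ a c, a ≠ c ∧ ((∀ i, b i = decide (i = a ∨ i = c)) ∨ ∀ i, b i = !decide (i = a ∨ i = c)) := by decide +kernel

theorem inv_odd : ∀ σ : P6, σ * σ = 1 → Perm.sign σ = 1 ∨ (∃ a b, a ≠ b ∧ σ = swap a b) ∨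
    (∀ i, (if σ i < σ (σ i) then (1 : ℤ) else -1) * (if i < σ i then 1 else -1) = -1) ∧
      (Perm.sign σ : ℤ) * ∏ i, (if i < σ i then (1 : ℤ) else -1) = 1 := by decide +kernel

theorem inv_even : ∀ σ : P6, σ * σ = 1 → Perm.sign σ = 1 → σ = 1 ∨ ∃ τ : P6, σ = τ * (swap 0 1 * swap 2 3) * τ⁻¹ := by
  intro σ h1 h2
  have k : ∀ σ : P6, σ * σ = 1 → Perm.sign σ = 1 → σ = 1 ∨ ∃ a b c d, a ≠ b ∧ a ≠ c ∧ a ≠ d ∧ b ≠ c ∧ b ≠ d ∧ c ≠ d ∧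
      σ = swap a b * swap c d := by decide +kernel
  have k2 : ∀ a b c d : Fin 6, a ≠ b → a ≠ c → a ≠ d → b ≠ c → b ≠ d → c ≠ d →
      ∃ x y z w : Fin 6, let τ := swap 0 x * swap 1 y * swap 2 z * swap 3 w; τ 0 = a ∧ τ 1 = b ∧ τ 2 = c ∧ τ 3 = d := by
    decide +kernel
  rcases k σ h1 h2 with h | ⟨a, b, c, d, n1, n2, n3, n4, n5, n6, rfl⟩
  · exact .inl h
  · obtain ⟨x, y, z, w, e0, e1, e2, e3⟩ := k2 a b c d n1 n2 n3 n4 n5 n6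
    refine .inr ⟨swap 0 x * swap 1 y * swap 2 z * swap 3 w, ?_⟩
    rw [← conj_mul, ← swap_apply_apply, ← swap_apply_apply, e0, e1, e2, e3]

end Cfsg.Agent.O6
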