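import Cfsg.Agent.O6.R1

/-! More finite facts. -/

set_option autoImplicit false

namespace Cfsg.Agent.O6

open Equiv

def PatC (c : Fin 6 → Fin 4) : Prop := (∀ i j, c i = c j → 2 ≤ c i → i = j) →
    (∀ i j k, c i = 1 → c j = 1 → 2 ≤ c k → i = j) →
    (∃ i j k, i ≠ j ∧ i ≠ k ∧ j ≠ k ∧ ∀ l, c l = if l = i then 1 else if l = j then 2 else if l = k then 3 else 0) ∨
    (∃ a b, a ≠ b ∧ ∀ l, c l = if l = a ∨ l = b then 0 else 1) ∨ (∃ i, ∀ l, l ≠ i → c l = 0) ∨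
    (∑ i, (![0, 0, 1, -1] (c i) : ℤ) = 0 ∧ ∑ i, (![0, 1, 0, 3] (c i) : ℤ) ∈ [2, 3, 5, 6]) ∨
    (∃ i, 2 ≤ c i) ∧ (∑ i, (![0, 0, 1, -1] (c i) : ℤ) = 1 ∧ ∑ i, (![0, 1, 0, 3] (c i) : ℤ) = 1 ∨
      ∑ i, (![0, 0, 1, -1] (c i) : ℤ) = -1 ∧ ∑ i, (![0, 1, 0, 3] (c i) : ℤ) = 4)

set_option synthInstance.maxSize 2000 in
instance (c : Fin 6 → Fin 4) : Decidable (PatC c) := by unfold PatC; infer_instance

theorem pat_cases (c : Fin 6 → Fin 4) : PatC c := by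
  have k : ∀ a0 a1 a2 a3 a4 a5 : Fin 4, PatC ![a0, a1, a2, a3, a4, a5] := by decide +kernel
  convert k (c 0) (c 1) (c 2) (c 3) (c 4) (c 5)
  ext i; fin_cases i <;> rfl

theorem ex_perm {n : ℕ} {f g : Fin n → Fin 6} (hf : Function.Injective f) (hg : Function.Injective g) :
    ∃ τ : P6, ∀ i, τ (f i) = g i := Perm.exists_extending_pair _ _ hf hg

theorem ex2 {a b : Fin 6} (h : a ≠ b) : ∃ τ : P6, τ 0 = a ∧ τ 1 = b := by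
  obtain ⟨τ, k⟩ := ex_perm (f := ![0, 1]) (g := ![a, b]) (by decide)
    (fun i j => by fin_cases i <;> fin_cases j <;> simp [h, h.symm])
  exact ⟨τ, k 0, k 1⟩

theorem ex3 {a b c : Fin 6} (h : a ≠ b) (h1 : a ≠ c) (h2 : b ≠ c) : ∃ τ : P6, τ 0 = a ∧ τ 1 = b ∧ τ 2 = c := by
  obtain ⟨τ, k⟩ := ex_perm (f := ![0, 1, 2]) (g := ![a, b, c]) (by decide)
    (fun i j => by fin_cases i <;> fin_cases j <;> simp [h, h.symm, h1, h1.symm, h2, h2.symm])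
  exact ⟨τ, k 0, k 1, k 2⟩

theorem ex4 {a b c d : Fin 6} (h : [a, b, c, d].Nodup) : ∃ τ : P6, τ 0 = a ∧ τ 1 = b ∧ τ 2 = c ∧ τ 3 = d := by
  obtain ⟨τ, k⟩ := ex_perm (f := ![0, 1, 2, 3]) (g := [a, b, c, d].get) (by decide) (List.nodup_iff_injective_get.1 h)
  exact ⟨τ, k 0, k 1, k 2, k 3⟩

theorem ex5 {a b c d f : Fin 6} (h : [a, b, c, d, f].Nodup) (p : Fin 5 → Fin 6) (hp : Function.Injective p) :
    ∃ τ : P6, τ (p 0) = a ∧ τ (p 1) = b ∧ τ (p 2) = c ∧ τ (p 3) = d ∧ τ (p 4) = f := by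
  obtain ⟨τ, k⟩ := ex_perm (f := p) (g := [a, b, c, d, f].get) hp (List.nodup_iff_injective_get.1 h)
  exact ⟨τ, k 0, k 1, k 2, k 3, k 4⟩

end Cfsg.Agent.O6
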