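import Cfsg.Agent.O6.D2

/-! Finite facts for the partner frame. -/

set_option autoImplicit false

namespace Cfsg.Agent.O6

open Equiv OG

/-- the transposition of the pair containing a point -/
def vb : Fin 6 → P6 := ![swap 0 1, swap 0 1, swap 2 3, swap 2 3, swap 4 5, swap 4 5]

theorem vb_v4 : ∀ c d, V4b (vb c * vb d) := by decide +kernel

theorem vb_one : ∀ c d, c ≠ d → vb c * vb d = 1 → d = pi3 c := by decide +kernel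

theorem v4_vb : ∀ σ, V4b σ → ∃ c d, σ = vb c * vb d := by
  rintro _ (rfl | rfl | rfl | rfl)
  exacts [⟨0, 0, by decide⟩, ⟨0, 2, rfl⟩, ⟨0, 4, rfl⟩, ⟨2, 4, rfl⟩]

theorem v4_sign : ∀ σ, V4b σ → Perm.sign σ = 1 := by rintro _ (rfl | rfl | rfl | rfl) <;> simp

theorem comm_t : ∀ σ : P6, σ * σ = 1 → Perm.sign σ = 1 → σ * (swap 0 1 * swap 2 3) = swap 0 1 * swap 2 3 * σ →
    (V4b σ ∨ σ = swap 0 2 * swap 1 3 ∨ σ * (swap 0 1 * swap 2 3) = swap 0 2 * swap 1 3) ∧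
    (σ * (swap 0 2 * swap 1 3) = swap 0 2 * swap 1 3 * σ → σ = 1 ∨ σ 4 = 4 ∧ σ 5 = 5 ∧
      (σ 0 = 1 ∧ σ 2 = 3 ∨ σ 0 = 2 ∧ σ 1 = 3 ∨ σ 0 = 3 ∧ σ 1 = 2)) := by decide +kernel

/-- representatives -/
def Rep (a b : Fin 6) (β : P6) : Prop := a = 0 ∧ b = 1 ∧ β = 1 ∨ a = 0 ∧ b = 1 ∧ β = swap 2 4 * swap 3 5 ∨
  a = 2 ∧ b = 3 ∧ β = swap 0 4 * swap 1 5 ∨ a = 4 ∧ b = 5 ∧ β = swap 0 2 * swap 1 3

theorem syn_rep (σ : P6) (h : Syn σ) : (∃ ν a b β, V4b ν ∧ Rep a b β ∧ (σ * ν = β ∨ σ * ν = swap a b * β)) ∨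
    Pr (σ * σ * σ) 0 1 0 1 ∧ ¬ Pr σ 0 1 0 1 := by
  have k : ∀ σ : P6, Syn σ → (∃ c d : Fin 6, ∃ p ∈ [((0 : Fin 6), (1 : Fin 6), (1 : P6)), (0, 1, swap 2 4 * swap 3 5),
      (2, 3, swap 0 4 * swap 1 5), (4, 5, swap 0 2 * swap 1 3)],
      σ * (vb c * vb d) = p.2.2 ∨ σ * (vb c * vb d) = swap p.1 p.2.1 * p.2.2) ∨
      Pr (σ * σ * σ) 0 1 0 1 ∧ ¬ Pr σ 0 1 0 1 := by decide +kernel
  refine (k σ h).imp_left fun ⟨c, d, p, hp, e⟩ => ⟨_, p.1, p.2.1, p.2.2, vb_v4 c d, ?_, e⟩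
  simp only [List.mem_cons, List.not_mem_nil, or_false] at hp
  rcases hp with rfl | rfl | rfl | rfl <;> simp [Rep]

theorem syn_v4 : ∀ τ : P6, (Syn τ → ∃ c d, τ * (vb c * vb d) * τ⁻¹ = swap 0 1 * swap 2 3) ∧
    (¬ Syn τ → ∃ a b c d, vb a * vb b * (τ * (vb c * vb d) * τ⁻¹) ≠ 1 ∧
      ((vb a * vb b * (τ * (vb c * vb d) * τ⁻¹)) ^ 3 = 1 ∨ (vb a * vb b * (τ * (vb c * vb d) * τ⁻¹)) ^ 5 = 1)) := by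
  have k : ∀ τ : P6, (Syn τ → ∃ p ∈ [((0 : Fin 6), (2 : Fin 6)), (0, 4), (2, 4)], τ * (vb p.1 * vb p.2) * τ⁻¹ = swap 0 1 * swap 2 3) ∧
    (¬ Syn τ → ∃ q ∈ [((0 : Fin 6), (2 : Fin 6)), (0, 4), (2, 4)], ∃ p ∈ [((0 : Fin 6), (2 : Fin 6)), (0, 4), (2, 4)],
      vb q.1 * vb q.2 * (τ * (vb p.1 * vb p.2) * τ⁻¹) ≠ 1 ∧
      ((vb q.1 * vb q.2 * (τ * (vb p.1 * vb p.2) * τ⁻¹)) ^ 3 = 1 ∨ (vb q.1 * vb q.2 * (τ * (vb p.1 * vb p.2) * τ⁻¹)) ^ 5 = 1)) := by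
    decide +kernel
  exact fun τ => ⟨fun h => let ⟨p, _, e⟩ := (k τ).1 h; ⟨_, _, e⟩, fun h => let ⟨q, _, p, _, e⟩ := (k τ).2 h; ⟨_, _, _, _, e⟩⟩

end Cfsg.Agent.O6
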