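import Cfsg.Agent.O6.P3

/-! Finite facts for the exclusion of bad bireflections. -/

set_option autoImplicit false

namespace Cfsg.Agent.O6

open Equiv OG

theorem stab_inv : ∀ σ : P6, σ * σ = 1 → Perm.sign σ = 1 → Pr σ 0 1 0 1 → σ = 1 ∨
    ∃ k l m n : Fin 6, [0, 1, k, l, m, n].Nodup ∧ (σ = swap k l * swap m n ∨ σ = swap 0 1 * swap m n) := by decide +kernel

theorem vb_01 : ∀ a b k l, (k = 2 ∧ l = 3 ∨ k = 4 ∧ l = 5) → vb a * vb b = swap 0 1 * swap k l →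
    (a = 0 ∨ a = 1) ∧ b ≠ 0 ∧ b ≠ 1 ∨ (b = 0 ∨ b = 1) ∧ a ≠ 0 ∧ a ≠ 1 := by decide +kernel

theorem pair_cases : ∀ c d : Fin 6, c ≠ d → (c = 0 ∧ d = 1 ∨ c = 1 ∧ d = 0) ∨
    (∃ a b x, a ≠ b ∧ a ≠ x ∧ b ≠ x ∧ (a = 0 ∧ b = 1 ∨ a = 1 ∧ b = 0) ∧ (c = a ∧ d = x ∨ c = x ∧ d = a)) ∨ [0, 1, c, d].Nodup := by
  decide +kernel

theorem ex_more2 : ∀ a b : Fin 6, a ≠ b → ∃ c d f, [a, b, c, d, f].Nodup := by decide +kernel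

theorem ex_more3 : ∀ a b c : Fin 6, a ≠ b → a ≠ c → b ≠ c → ∃ d f, [a, b, c, d, f].Nodup := by decide +kernel

theorem ex6 {a b c d f g : Fin 6} (h : [a, b, c, d, f, g].Nodup) :
    ∃ τ : P6, τ 0 = a ∧ τ 1 = b ∧ τ 2 = c ∧ τ 3 = d ∧ τ 4 = f ∧ τ 5 = g := by
  obtain ⟨τ, k⟩ := ex_perm (f := id) (g := [a, b, c, d, f, g].get) Function.injective_id (List.nodup_iff_injective_get.1 h)
  exact ⟨τ, k 0, k 1, k 2, k 3, k 4, k 5⟩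

theorem ex_even {c d : Fin 6} (h : c ≠ d) : ∃ σ : P6, Perm.sign σ = 1 ∧ Pr σ 0 1 c d := by
  obtain ⟨τ, rfl, rfl⟩ := ex2 h
  rcases Int.units_eq_one_or (Perm.sign τ) with e | e
  exacts [⟨τ, e, .inl ⟨rfl, rfl⟩⟩, ⟨τ * swap 0 1, by simp [e], .inr ⟨by simp, by simp⟩⟩]

theorem conj_even (τ : P6) : ∃ σ : P6, Perm.sign σ = 1 ∧ τ * (swap 0 1 * swap 2 3) * τ⁻¹ = σ * (swap 0 1 * swap 2 3) * σ⁻¹ := by
  rcases Int.units_eq_one_or (Perm.sign τ) with e | e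
  · exact ⟨τ, e, rfl⟩
  · refine ⟨τ * swap 0 1, by simp [e], ?_⟩
    rw [show (swap 0 1 * swap 2 3 : P6) = swap 0 1 * (swap 0 1 * swap 2 3) * (swap 0 1)⁻¹ by decide]
    conv_rhs => rw [show (swap 0 1 * (swap 0 1 * swap 2 3) * (swap 0 1)⁻¹ : P6) = swap 0 1 * swap 2 3 by decide]
    group

theorem ex_third : ∀ i j : Fin 6, ∃ m, ¬ m < 2 ∧ m ≠ i ∧ m ≠ j := by decide

theorem ex_rest : ∀ k l : Fin 6, ¬ k < 2 → ¬ l < 2 → k ≠ l → ∃ i j, i ≠ j ∧ ¬ i < 2 ∧ ¬ j < 2 ∧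
    ∀ m, m ≠ i → m ≠ j → m < 2 ∨ m = k ∨ m = l := by decide +kernel

end Cfsg.Agent.O6
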