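import Cfsg.Agent.O6.Def

/-! Reflections, signed permutation matrices, change of basis. -/

set_option autoImplicit false

namespace Cfsg.Agent.O6

open Matrix Equiv

variable {Γ K : Type*} [Group Γ] [Field K]

abbrev P6 := Perm (Fin 6)

/-- standard basis -/
def e (i : Fin 6) : W K := Pi.single i 1

theorem e_apply (i j : Fin 6) : (e i : W K) j = if j = i then 1 else 0 := by simp [e, Pi.single_apply]

@[simp] theorem e_dot (i : Fin 6) (u : W K) : e i ⬝ᵥ u = u i := by simp [e]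
@[simp] theorem dot_e (i : Fin 6) (u : W K) : u ⬝ᵥ e i = u i := by simp [e]
theorem e_self (i : Fin 6) : (e i : W K) i = 1 := by simp [e]
theorem e_ne {i j : Fin 6} (h : j ≠ i) : (e i : W K) j = 0 := by simp [e, h]

theorem mulVec_e (X : M6 K) (i j : Fin 6) : (X *ᵥ e i) j = X j i := by simp [e]

theorem ext_e {X Y : M6 K} (h : ∀ i, X *ᵥ e i = Y *ᵥ e i) : X = Y := by
  ext j i; rw [← mulVec_e X, h, mulVec_e]

theorem rf_mulVec (u w : W K) : rf u *ᵥ w = w - (2 * (u ⬝ᵥ w) / (u ⬝ᵥ u)) • u := by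
  simp only [rf, sub_mulVec, one_mulVec, smul_mulVec, vecMulVec_mulVec]
  congr 1; ext i; simp; ring

theorem rf_unit {u : W K} (h : u ⬝ᵥ u = 1) (w : W K) : rf u *ᵥ w = w - (2 * (u ⬝ᵥ w)) • u := by
  rw [rf_mulVec, h, div_one]

theorem rf_perp {u w : W K} (h : u ⬝ᵥ w = 0) : rf u *ᵥ w = w := by simp [rf_mulVec, h]

theorem rf_self {u : W K} (h : u ⬝ᵥ u ≠ 0) : rf u *ᵥ u = -u := by
  rw [rf_mulVec, mul_div_cancel_right₀ _ h]; ext i; simp; ring

theorem rf_apply (u : W K) (i j : Fin 6) : rf u i j = (if i = j then 1 else 0) - 2 / (u ⬝ᵥ u) * (u i * u j) := by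
  simp [rf, one_apply, vecMulVec_apply]

theorem rf_sq {u : W K} (h : u ⬝ᵥ u ≠ 0) : rf u * rf u = 1 := by
  refine ext_iff_mulVec.2 fun w => ?_
  rw [← mulVec_mulVec, rf_mulVec u w, mulVec_sub, mulVec_smul, rf_self h, rf_mulVec]; simp

theorem rf_smul {c : K} (hc : c ≠ 0) (u : W K) : rf (c • u) = rf u := by
  ext i j
  by_cases h : u ⬝ᵥ u = 0
  · simp [rf_apply, h]
  · simp only [rf_apply, smul_dotProduct, dotProduct_smul, Pi.smul_apply, smul_eq_mul]; field_simp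

theorem rf_neg (u : W K) : rf (-u) = rf u := by simpa using rf_smul (c := (-1 : K)) (by simp) u

theorem rf_tr (u : W K) : (rf u)ᵀ = rf u := by ext i j; simp [rf_apply, eq_comm, mul_comm]

theorem rf_comm {u v : W K} (h : u ⬝ᵥ v = 0) : rf u * rf v = rf v * rf u := by
  have h' : v ⬝ᵥ u = 0 := by rw [dotProduct_comm, h]
  refine ext_iff_mulVec.2 fun w => ?_
  simp only [← mulVec_mulVec, rf_mulVec, dotProduct_sub, dotProduct_smul, h, h', smul_eq_mul, mul_zero, sub_zero]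
  abel

/-- orthogonal matrices -/
def Ot (Q : M6 K) : Prop := Qᵀ * Q = 1

theorem Ot.right {Q : M6 K} (h : Ot Q) : Q * Qᵀ = 1 := mul_eq_one_comm.1 h

theorem Ot.dot {Q : M6 K} (h : Ot Q) (u v : W K) : (Q *ᵥ u) ⬝ᵥ (Q *ᵥ v) = u ⬝ᵥ v := by
  rw [dotProduct_mulVec, ← mulVec_transpose, mulVec_mulVec, h, one_mulVec]

theorem Ot.dot' {Q : M6 K} (u v : W K) : (Q *ᵥ u) ⬝ᵥ v = u ⬝ᵥ (Qᵀ *ᵥ v) := by
  rw [dotProduct_mulVec, vecMul_transpose]

theorem Ot.mul {Q R : M6 K} (h : Ot Q) (h' : Ot R) : Ot (Q * R) := by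
  rw [Ot, transpose_mul, mul_assoc, ← mul_assoc Qᵀ, h, one_mul, h']

theorem Ot.tr {Q : M6 K} (h : Ot Q) : Ot Qᵀ := by rw [Ot, transpose_transpose, h.right]

theorem Ot.rf {Q : M6 K} (h : Ot Q) (u : W K) : rf (Q *ᵥ u) = Q * rf u * Qᵀ := by
  refine ext_iff_mulVec.2 fun w => ?_
  rw [← mulVec_mulVec, ← mulVec_mulVec, rf_mulVec, rf_mulVec, h.dot, mulVec_sub, mulVec_smul, mulVec_mulVec, h.right,
    one_mulVec, Ot.dot']

theorem Ot.rf2 {Q : M6 K} (h : Ot Q) (u v : W K) :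
    O6.rf (Q *ᵥ u) * O6.rf (Q *ᵥ v) = Q * (O6.rf u * O6.rf v) * Qᵀ := by
  rw [h.rf, h.rf]
  calc _ = Q * O6.rf u * (Qᵀ * Q) * O6.rf v * Qᵀ := by simp only [mul_assoc]
    _ = _ := by rw [h, mul_one]; simp only [mul_assoc]

theorem Ot.cancel {Q : M6 K} (h : Ot Q) (X : M6 K) : Q * (Qᵀ * X * Q) * Qᵀ = X := by
  calc _ = (Q * Qᵀ) * X * (Q * Qᵀ) := by simp only [mul_assoc]
    _ = X := by simp [h.right]

theorem Ot.cancel' {Q : M6 K} (h : Ot Q) (X : M6 K) : Qᵀ * (Q * X * Qᵀ) * Q = X := by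
  simpa using h.tr.cancel X

theorem Ot.cj_eq {Q : M6 K} (h : Ot Q) {X Y : M6 K} : Qᵀ * X * Q = Y ↔ X = Q * Y * Qᵀ :=
  ⟨fun e => by rw [← e, h.cancel], fun e => by rw [e, h.cancel']⟩

theorem trace_rf2 {u v : W K} (hu : u ⬝ᵥ u = 1) (hv : v ⬝ᵥ v = 1) (h : u ⬝ᵥ v = 0) : (rf u * rf v).trace = 2 := by
  have h' : v ⬝ᵥ u = 0 := by rw [dotProduct_comm, h]
  simp only [rf, hu, hv, div_one, mul_sub, sub_mul, one_mul, mul_one, trace_sub, trace_smul, Matrix.smul_mul,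
    Matrix.mul_smul, vecMulVec_mul_vecMulVec, trace_vecMulVec, h, h', trace_one]
  simp [hu, hv]; norm_num

/-- signs -/
def Sg (ε : Fin 6 → K) : Prop := ∀ i, ε i = 1 ∨ ε i = -1

theorem Sg.sq {ε : Fin 6 → K} (h : Sg ε) (i : Fin 6) : ε i * ε i = 1 := by rcases h i with e | e <;> simp [e]

theorem Sg.ne {ε : Fin 6 → K} (h : Sg ε) (i : Fin 6) : ε i ≠ 0 := fun e => by simpa [e] using h.sq i

theorem Sg.mul {ε η : Fin 6 → K} (h : Sg ε) (h' : Sg η) (σ τ : Fin 6 → Fin 6) : Sg fun i => ε (σ i) * η (τ i) := fun i => by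
  rcases h (σ i) with a | a <;> rcases h' (τ i) with b | b <;> simp [a, b]

theorem Sg.comp {ε : Fin 6 → K} (h : Sg ε) (σ : Fin 6 → Fin 6) : Sg fun i => ε (σ i) := fun i => h _

theorem Sg.neg {ε : Fin 6 → K} (h : Sg ε) : Sg fun i => -ε i := fun i => by rcases h i with a | a <;> simp [a]

theorem sg_one : Sg (fun _ => (1 : K)) := fun _ => Or.inl rfl

theorem Sg.prod {ε : Fin 6 → K} (h : Sg ε) : (∏ i, ε i) * ∏ i, ε i = 1 := by
  rw [← Finset.prod_mul_distrib]; simp [h.sq]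

theorem sg_of_sq {ε : Fin 6 → K} (h : ∀ i, ε i * ε i = 1) : Sg ε := fun i => mul_self_eq_one_iff.1 (h i)

/-- signed permutation matrices: `e i ↦ ε i • e (σ i)` -/
def sp (σ : P6) (ε : Fin 6 → K) : M6 K := fun i j => if i = σ j then ε j else 0

theorem sp_apply (σ : P6) (ε : Fin 6 → K) (i j : Fin 6) : sp σ ε i j = if i = σ j then ε j else 0 := rfl

theorem sp_e (σ : P6) (ε : Fin 6 → K) (i : Fin 6) : sp σ ε *ᵥ e i = ε i • e (σ i) := by
  ext j; simp [mulVec_e, sp, e_apply]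

theorem sp_mulVec (σ : P6) (ε : Fin 6 → K) (u : W K) (i : Fin 6) : (sp σ ε *ᵥ u) (σ i) = ε i * u i := by
  simp [sp, mulVec, dotProduct]

theorem sp_mulVec' (σ : P6) (ε : Fin 6 → K) (u : W K) (i : Fin 6) : (sp σ ε *ᵥ u) i = ε (σ⁻¹ i) * u (σ⁻¹ i) := by
  simpa using sp_mulVec σ ε u (σ⁻¹ i)

theorem sp_mul (σ τ : P6) (ε η : Fin 6 → K) : sp σ ε * sp τ η = sp (σ * τ) fun i => ε (τ i) * η i :=
  ext_e fun i => by simp [← mulVec_mulVec, sp_e, mulVec_smul, smul_smul, mul_comm]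

theorem sp_one : sp 1 (fun _ => (1 : K)) = 1 := by ext i j; by_cases h : i = j <;> simp [sp, h, Matrix.one_apply]

theorem sp_tr (σ : P6) (ε : Fin 6 → K) : (sp σ ε)ᵀ = sp σ⁻¹ fun i => ε (σ⁻¹ i) := by
  ext i j; simp only [transpose_apply, sp]
  by_cases h : j = σ i
  · subst h; simp
  · rw [if_neg h, if_neg fun e => h (by simp [e])]

theorem sp_neg (σ : P6) (ε : Fin 6 → K) : -sp σ ε = sp σ fun i => -ε i := by
  ext i j; simp only [Matrix.neg_apply, sp]; split_ifs <;> simp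

theorem Sg.ot {ε : Fin 6 → K} (h : Sg ε) (σ : P6) : Ot (sp σ ε) := by
  rw [Ot, sp_tr, sp_mul]; simp [h.sq, sp_one]

theorem sp_det (σ : P6) (ε : Fin 6 → K) : (sp σ ε).det = ((Perm.sign σ : ℤ) : K) * ∏ i, ε i := by
  have : sp σ ε = (σ⁻¹.permMatrix K) * diagonal ε := by
    ext i j; rw [mul_diagonal]
    by_cases h : i = σ j
    · subst h; simp [sp, Perm.permMatrix, PEquiv.toMatrix_apply, Equiv.toPEquiv_apply]
    · have : ¬ σ.symm i = j := fun e => h (by rw [← e]; simp)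
      simp [sp, h, Perm.permMatrix, PEquiv.toMatrix_apply, Equiv.toPEquiv_apply, this]
  rw [this, det_mul, det_permutation, det_diagonal]; simp

theorem sp_inj {σ τ : P6} {ε η : Fin 6 → K} (h : Sg ε) (e : sp σ ε = sp τ η) : σ = τ ∧ ε = η := by
  have k : ∀ i, σ i = τ i ∧ ε i = η i := fun i => by
    have := congrFun (congrFun e (σ i)) i
    simp only [sp, if_true] at this
    by_cases c : σ i = τ i
    · exact ⟨c, by simpa [c] using this⟩
    · exact absurd (by simpa [c] using this) (h.ne i)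
  exact ⟨Equiv.ext fun i => (k i).1, funext fun i => (k i).2⟩

/-- the sign change at `a` and `b` -/
def sg2 (a b : Fin 6) : Fin 6 → K := fun i => (if i = a then -1 else 1) * if i = b then -1 else 1

theorem sg_sg2 (a b : Fin 6) : Sg (sg2 a b : Fin 6 → K) := fun i => by
  simp only [sg2]; split_ifs <;> simp

/-- the bireflection in the coordinate plane -/
def dg (a b : Fin 6) : M6 K := sp 1 (sg2 a b)

theorem rf_e (a : Fin 6) : rf (e a : W K) = sp 1 fun i => if i = a then -1 else 1 := by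
  ext i j
  simp only [rf_apply, e_dot, e_self, e_apply, sp, Perm.one_apply]
  by_cases h1 : i = j <;> by_cases h2 : j = a <;> by_cases h3 : i = a <;> simp_all <;> norm_num

theorem rf_e2 (a b : Fin 6) : rf (e a : W K) * rf (e b) = dg a b := by
  rw [rf_e, rf_e, sp_mul]; rfl

theorem dg_mulVec (a b : Fin 6) (u : W K) (i : Fin 6) : (dg a b *ᵥ u) i = sg2 a b i * u i := sp_mulVec 1 _ u i

theorem dg_comm (a b : Fin 6) : (dg a b : M6 K) = dg b a := by
  unfold dg; congr 1; ext i; simp [sg2, mul_comm]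

theorem sp_dg (σ : P6) {ε : Fin 6 → K} (h : Sg ε) (a b : Fin 6) : sp σ ε * dg a b * (sp σ ε)ᵀ = dg (σ a) (σ b) := by
  rw [← rf_e2, ← (h.ot σ).rf2, sp_e, sp_e, rf_smul (h.ne a), rf_smul (h.ne b), rf_e2]

theorem dg_inj (h2 : (2 : K) ≠ 0) {a b c d : Fin 6} (hab : a ≠ b) (h : (dg a b : M6 K) = dg c d) :
    (a = c ∧ b = d) ∨ (a = d ∧ b = c) := by
  have k := (sp_inj (sg_sg2 a b) h).2
  have n : (-1 : K) ≠ 1 := fun e => h2 (by linear_combination -e)
  have ka := congrFun k a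
  have kb := congrFun k b
  simp only [sg2, if_true, if_neg hab, if_neg hab.symm] at ka kb
  by_cases h1 : a = c <;> by_cases h2 : a = d <;> by_cases h3 : b = c <;> by_cases h4 : b = d <;> simp_all

theorem trace_dg {a b : Fin 6} (h : a ≠ b) : (dg a b : M6 K).trace = 2 := by
  rw [← rf_e2]; exact trace_rf2 (by simp [e_self]) (by simp [e_self]) (by simp [e_ne h.symm])

namespace OG

variable (G : OG Γ K)

theorem ot (x : Γ) : Ot (G.φ x) := G.orth x

theorem φ_inv (x : Γ) : G.φ x⁻¹ = (G.φ x)ᵀ := by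
  have : G.φ x⁻¹ * G.φ x = 1 := by rw [← map_mul]; simp
  rw [← mul_one (G.φ x⁻¹), ← (G.ot x).right, ← mul_assoc, this, one_mul]

theorem φ_conj (g x : Γ) : G.φ (g * x * g⁻¹) = G.φ g * G.φ x * (G.φ g)ᵀ := by rw [map_mul, map_mul, φ_inv]

theorem m_comm (x : Γ) : G.m * x = x * G.m := G.inj (by simp [G.hm])

theorem m_sq : G.m * G.m = 1 := G.inj (by simp [G.hm])

include G in
theorem n1 : (-1 : K) ≠ 1 := fun e => G.two (by linear_combination -e)

/-- change of orthonormal basis -/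
def cj (Q : M6 K) (hQ : Ot Q) : OG Γ K where
  φ := { toFun x := Qᵀ * G.φ x * Q
         map_one' := by simpa [Ot] using hQ
         map_mul' x y := by
           calc _ = Qᵀ * G.φ x * (Q * Qᵀ) * G.φ y * Q := by simp [hQ.right, mul_assoc]
             _ = _ := by simp only [mul_assoc] }
  inj x y h := G.inj (by rw [← hQ.cancel (G.φ x), ← hQ.cancel (G.φ y)]; exact congrArg (Q * · * Qᵀ) h)
  two := G.two
  h := G.h
  hh := G.hh
  orth x := (hQ.tr.mul (G.ot x)).mul hQ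
  det x := by
    have := congrArg Matrix.det hQ
    simp only [MonoidHom.coe_mk, OneHom.coe_mk, det_mul, G.det, mul_one, det_one] at this ⊢; exact this
  m := G.m
  hm := by simpa [G.hm, Ot] using hQ
  h2 x h := G.h2 x (by
    have : Qᵀ * (G.φ x * G.φ x) * Q = -1 := by
      rw [← h]; simp only [MonoidHom.coe_mk, OneHom.coe_mk, mul_assoc]; rw [← mul_assoc Q, hQ.right, one_mul]
    rw [hQ.cj_eq.1 this]; simp [hQ.right])
  h3 x h := G.h3 x (by
    have : Qᵀ * (G.φ x * G.φ x + G.φ x + 1) * Q = 0 := by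
      rw [← h]; simp only [MonoidHom.coe_mk, OneHom.coe_mk, mul_add, add_mul, mul_assoc, one_mul]
      rw [← mul_assoc Q, hQ.right, one_mul, hQ]
    rw [hQ.cj_eq.1 this]; simp)
  rot x u v hu hv h := by
    have := G.rot x (Q *ᵥ u) (Q *ᵥ v) (by rwa [hQ.dot]) (by rwa [hQ.dot]) (by rw [hQ.rf2]; exact hQ.cj_eq.1 h)
    simpa only [hQ.dot] using this
  sq x y v v' c h0 h1 h2 h3 h4 h5 h6 h7 :=
    G.sq x y (Q *ᵥ v) (Q *ᵥ v') (Q *ᵥ c) (fun e => h0 (by simpa [mulVec_mulVec, show Qᵀ * Q = 1 from hQ] using congrArg (Qᵀ *ᵥ ·) e))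
      (by rwa [hQ.dot]) (by rwa [hQ.dot]) (by rwa [hQ.dot]) (by rwa [hQ.dot]) (by rwa [hQ.dot])
      (by rw [← mulVec_add, hQ.rf2]; exact hQ.cj_eq.1 h6) (by rw [← mulVec_add, hQ.rf2]; exact hQ.cj_eq.1 h7)
  irr f hf := by
    obtain ⟨x, h1, h2⟩ := G.irr (fun i => Q *ᵥ f i) fun i j => by rw [hQ.dot, hf]
    have k : rf (Q *ᵥ f 0) * rf (Q *ᵥ f 1) * rf (Q *ᵥ f 2) = Q * (rf (f 0) * rf (f 1) * rf (f 2)) * Qᵀ := by
      rw [hQ.rf2, hQ.rf]; simp only [mul_assoc]; rw [← mul_assoc Qᵀ, hQ, one_mul]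
    rw [k] at h1 h2
    generalize rf (f 0) * rf (f 1) * rf (f 2) = p at *
    have a : G.φ x * (Q * p * Qᵀ) = Q * (Qᵀ * G.φ x * Q * p) * Qᵀ := by
      simp only [← mul_assoc, hQ.right, one_mul]
    have b : Q * p * Qᵀ * G.φ x = Q * (p * (Qᵀ * G.φ x * Q)) * Qᵀ := by
      simp only [mul_assoc, hQ.right, mul_one]
    refine ⟨x, fun e => h1 ?_, fun e => h2 ?_⟩
    · rw [a, b]; exact congrArg (Q * · * Qᵀ) e
    · rw [a, b, ← neg_mul, ← mul_neg]; exact congrArg (Q * · * Qᵀ) e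
  simp := G.simp

variable {G}

theorem cj_φ {Q : M6 K} {hQ : Ot Q} (x : Γ) : (G.cj Q hQ).φ x = Qᵀ * G.φ x * Q := rfl

theorem cj_eq {Q : M6 K} {hQ : Ot Q} {x : Γ} {Y : M6 K} : (G.cj Q hQ).φ x = Y ↔ G.φ x = Q * Y * Qᵀ := hQ.cj_eq

@[simp] theorem cj_m {Q : M6 K} {hQ : Ot Q} : (G.cj Q hQ).m = G.m := rfl

@[simp] theorem cj_h {Q : M6 K} {hQ : Ot Q} : (G.cj Q hQ).h = G.h := rfl

theorem cj_cj {Q R : M6 K} {hQ : Ot Q} {hR : Ot R} (x : Γ) :
    ((G.cj Q hQ).cj R hR).φ x = (G.cj (Q * R) (hQ.mul hR)).φ x := by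
  simp only [cj_φ, transpose_mul, mul_assoc]

theorem cj_g (g x : Γ) : (G.cj (G.φ g) (G.ot g)).φ x = G.φ (g⁻¹ * x * g) := by
  rw [cj_φ, map_mul, map_mul, φ_inv]

theorem cj_B {Q : M6 K} {hQ : Ot Q} {u v : W K} : (G.cj Q hQ).B u v ↔ G.B (Q *ᵥ u) (Q *ᵥ v) :=
  exists_congr fun x => by rw [cj_eq, hQ.rf2]

namespace B

variable {u v w : W K}

theorem symm (h : G.B u v) : G.B v u := by
  obtain ⟨x, h⟩ := h
  exact ⟨x⁻¹, by rw [φ_inv, h, transpose_mul, rf_tr, rf_tr]⟩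

theorem trans (h : G.B u v) (h' : G.B v w) (hv : v ⬝ᵥ v ≠ 0) : G.B u w := by
  obtain ⟨x, h⟩ := h
  obtain ⟨y, h'⟩ := h'
  exact ⟨x * y, by rw [map_mul, h, h', mul_assoc, ← mul_assoc (rf v), rf_sq hv, one_mul]⟩

theorem conj (h : G.B u v) (g : Γ) : G.B (G.φ g *ᵥ u) (G.φ g *ᵥ v) := by
  obtain ⟨x, h⟩ := h
  exact ⟨g * x * g⁻¹, by rw [φ_conj, h, (G.ot g).rf2]⟩

theorem smul_right (h : G.B u v) {c : K} (hc : c ≠ 0) : G.B u (c • v) := by rwa [B, rf_smul hc]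

theorem smul_left (h : G.B u v) {c : K} (hc : c ≠ 0) : G.B (c • u) v := by rwa [B, rf_smul hc]

theorem neg_right (h : G.B u v) : G.B u (-v) := by rwa [B, rf_neg]

theorem neg_left (h : G.B u v) : G.B (-u) v := by rwa [B, rf_neg]

/-- classes are closed under reflections -/
theorem refl {a : W K} (h : G.B a u) (h' : G.B a v) (ha : a ⬝ᵥ a ≠ 0) (hu : u ⬝ᵥ u ≠ 0) : G.B a (rf u *ᵥ v) := by
  obtain ⟨y, hy⟩ := h'.symm.trans h ha
  obtain ⟨x, h⟩ := h
  have o : Ot (rf u) := by rw [Ot, rf_tr, rf_sq hu]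
  exact ⟨x * y, by rw [map_mul, h, hy, o.rf, rf_tr]; simp only [mul_assoc]⟩

theorem al (h : G.B u v) (hu : u ⬝ᵥ u = 1) (hv : v ⬝ᵥ v = 1) : v = u ∨ v = -u ∨ Al (4 * (u ⬝ᵥ v) ^ 2) := by
  obtain ⟨x, h⟩ := h
  rcases G.rot x u v (by simp [hu]) (by simp [hv]) h with rfl | k
  · have e1 : rf u = rf v := by
      have := congrArg (· * rf v) h
      simpa [mul_assoc, rf_sq (u := v) (by simp [hv])] using this.symm
    have e2 := congrArg (· *ᵥ v) e1
    simp only [rf_self (u := v) (by simp [hv]), rf_unit hu] at e2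
    have e3 : v = (u ⬝ᵥ v) • u := by
      ext i; have := congrFun e2 i
      simp only [Pi.sub_apply, Pi.smul_apply, Pi.neg_apply, smul_eq_mul] at this ⊢
      exact mul_left_cancel₀ G.two (by linear_combination this)
    have e4 : (u ⬝ᵥ v) * (u ⬝ᵥ v) = 1 := by
      have := hv; rw [e3, smul_dotProduct, dotProduct_smul, hu] at this
      simp only [smul_eq_mul, mul_one] at this; exact this
    rcases mul_self_eq_one_iff.1 e4 with c | c <;> rw [c] at e3 <;> simp [e3]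
  · simpa [hu, hv] using Or.inr (Or.inr k)

end B

end OG

end Cfsg.Agent.O6
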