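import Cfsg.Agent.O6.P1

/-! The frame group `E`, the monomial group `M`, its permutation group `X`. -/

set_option autoImplicit false

namespace Cfsg.Agent.O6

open Matrix Equiv

variable {Γ K : Type*} [Group Γ] [Field K]

/-- the change of basis to the partner frame -/
def Q45 (h : K) : M6 K :=
  !![h, h, 0, 0, 0, 0; h, -h, 0, 0, 0, 0; 0, 0, h, h, 0, 0; 0, 0, h, -h, 0, 0; 0, 0, 0, 0, h, h; 0, 0, 0, 0, h, -h]

/-- roots of type `D₄` -/
def yv (a b : Fin 6) : W K := fun i => if i = a ∨ i = b then 0 else 1 / 2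

/-- roots of type `H₃` -/
def hv (i j k : Fin 6) (t : K) : W K := fun l => if l = i then 1 / 2 else if l = j then t / 2 else if l = k then (t - 1) / 2 else 0

theorem Q45_tr (h : K) : (Q45 h)ᵀ = Q45 h := by ext i j; fin_cases i <;> fin_cases j <;> rfl

theorem Q45_sq {h : K} (hh : 2 * h * h = 1) : Q45 h * Q45 h = 1 := by
  ext i j; fin_cases i <;> fin_cases j <;> simp [Q45, mul_apply, Fin.sum_univ_succ] <;> linear_combination hh

theorem Q45_ot {h : K} (hh : 2 * h * h = 1) : Ot (Q45 h) := by rw [Ot, Q45_tr, Q45_sq hh]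

theorem Q45_det {h : K} (hh : 2 * h * h = 1) : (Q45 h).det = -1 := by
  have : Q45 h = !![1, 0, 0, 0, 0, 0; 1, 1, 0, 0, 0, 0; 0, 0, 1, 0, 0, 0; 0, 0, 1, 1, 0, 0; 0, 0, 0, 0, 1, 0; 0, 0, 0, 0, 1, 1] *
      !![h, h, 0, 0, 0, 0; 0, -2 * h, 0, 0, 0, 0; 0, 0, h, h, 0, 0; 0, 0, 0, -2 * h, 0, 0; 0, 0, 0, 0, h, h; 0, 0, 0, 0, 0, -2 * h] := by
    ext i j; fin_cases i <;> fin_cases j <;> simp [Q45, mul_apply, Fin.sum_univ_succ] <;> ring
  rw [this, det_mul, det_of_lowerTriangular, det_of_upperTriangular]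
  · simp only [Fin.prod_univ_succ]; simp; linear_combination ((2 * h * h) ^ 2 + 2 * h * h + 1) * hh
  · intro i j; fin_cases i <;> fin_cases j <;> simp
  · intro i j; fin_cases i <;> fin_cases j <;> first | (intro; rfl) | (intro c; exact absurd c (by decide))

theorem exists_sp {Q : M6 K} (hQ : Ot Q) (h : ∀ i, ∃ j, Q *ᵥ e i = e j ∨ Q *ᵥ e i = -e j) : ∃ σ ε, Sg ε ∧ Q = sp σ ε := by
  choose s hs using h
  have k : ∀ i, ∃ c : K, (c = 1 ∨ c = -1) ∧ Q *ᵥ e i = c • e (s i) := fun i =>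
    (hs i).elim (fun h => ⟨1, .inl rfl, by simp [h]⟩) fun h => ⟨-1, .inr rfl, by simp [h]⟩
  choose ε h1 h2 using k
  have inj : Function.Injective s := fun i j h => by
    by_contra n
    have := hQ.dot (e i) (e j)
    rw [h2, h2, h] at this
    simp only [smul_dotProduct, dotProduct_smul, e_dot, e_self, e_ne n, smul_eq_mul, mul_one] at this
    exact mul_ne_zero (Sg.ne h1 _) (Sg.ne h1 _) this
  exact ⟨Equiv.ofBijective s (Finite.injective_iff_bijective.1 inj), ε, h1, ext_e fun i => by rw [h2, sp_e]; rfl⟩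

theorem unit_e {v : W K} (hv : v ⬝ᵥ v = 1) {k : Fin 6} (h : ∀ i, i ≠ k → v i = 0) : v = e k ∨ v = -e k := by
  have e1 : v = v k • e k := by
    ext i; by_cases c : i = k
    · simp [c, e_self]
    · simp [h i c, e_ne c]
  have e2 : v k * v k = 1 := by rw [← hv]; conv_rhs => rw [e1]; simp [e_self]
  rcases mul_self_eq_one_iff.1 e2 with c | c <;> rw [c] at e1 <;> simp [e1]

/-- common eigenvectors of sign changes -/
theorem eig_e (two : (2 : K) ≠ 0) {v : W K} (hv : v ⬝ᵥ v = 1) (S : Fin 6 → Prop) (h0 : ∀ i, ¬ S i → v i = 0)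
    (h3 : ∀ a b, ∃ c, S c ∧ c ≠ a ∧ c ≠ b) (h : ∀ a c, S a → S c → a ≠ c → dg a c *ᵥ v = v ∨ dg a c *ᵥ v = -v) :
    ∃ k, S k ∧ (v = e k ∨ v = -e k) := by
  obtain ⟨k, hk⟩ : ∃ k, v k ≠ 0 := by
    by_contra! n; rw [show v = 0 from funext n] at hv; simp at hv
  have sk : S k := by by_contra n; exact hk (h0 k n)
  refine ⟨k, sk, unit_e hv fun i hi => ?_⟩
  obtain ⟨c, sc, ck, ci⟩ := h3 k i
  rcases h k c sk sc ck.symm with t | t
  · have := congrFun t k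
    rw [dg_mulVec, sg2, if_pos rfl, if_neg ck.symm] at this
    exact absurd (mul_left_cancel₀ two (by linear_combination -this)) hk
  · have := congrFun t i
    rw [dg_mulVec, sg2, if_neg hi, if_neg ci.symm, Pi.neg_apply] at this
    exact mul_left_cancel₀ two (by linear_combination this)

theorem sg_cases (two : (2 : K) ≠ 0) {ε : Fin 6 → K} (h : Sg ε) (hp : ∏ i, ε i = 1) :
    (ε = fun _ => 1) ∨ (ε = fun _ => -1) ∨ ∃ a b, a ≠ b ∧ (ε = sg2 a b ∨ ε = fun i => -sg2 a b i) := by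
  classical
  have n : (1 : K) ≠ -1 := fun e => two (by linear_combination e)
  have e1 : ∀ i, ε i = if decide (ε i = -1) then -1 else 1 := fun i => by rcases h i with c | c <;> simp [c, n]
  rcases bool_cases fun i => decide (ε i = -1) with c | c | c | ⟨a, b, ab, c | c⟩
  · have := congrArg (Int.cast : ℤ → K) c
    push_cast at this
    exact absurd (hp.symm.trans ((Finset.prod_congr rfl fun i _ => by simpa using e1 i).trans this)) n
  · exact .inl (funext fun i => by rw [e1, c]; rfl)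
  · exact .inr (.inl (funext fun i => by rw [e1, c]; rfl))
  · refine .inr (.inr ⟨a, b, ab, .inl (funext fun i => ?_)⟩)
    rw [e1, c, sg2]; by_cases x : i = a <;> by_cases y : i = b <;> first | exact absurd (x.symm.trans y) ab | simp [x, y, ab, ab.symm]
  · refine .inr (.inr ⟨a, b, ab, .inr (funext fun i => ?_)⟩)
    rw [e1, c, sg2]; by_cases x : i = a <;> by_cases y : i = b <;> first | exact absurd (x.symm.trans y) ab | simp [x, y, ab, ab.symm]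

theorem sp_yv (τ : P6) (a b : Fin 6) : sp τ (fun _ => (1 : K)) *ᵥ yv a b = yv (τ a) (τ b) := by
  ext i; obtain ⟨i, rfl⟩ := τ.surjective i; simp [sp_mulVec, yv]

theorem sp_hv (τ : P6) (i j k : Fin 6) (t : K) : sp τ (fun _ => (1 : K)) *ᵥ hv i j k t = hv (τ i) (τ j) (τ k) t := by
  ext l; obtain ⟨l, rfl⟩ := τ.surjective l; simp [sp_mulVec, hv]

namespace OG

variable (G : OG Γ K)

/-- the standard basis is a frame -/
def St : Prop := ∀ i j, G.B (e i) (e j)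

/-- monomial elements -/
def Mo (x : Γ) (σ : P6) : Prop := ∃ ε, Sg ε ∧ G.φ x = sp σ ε

/-- bireflections -/
def Bi (x : Γ) : Prop := x * x = 1 ∧ (G.φ x).trace = 2

variable {G}

theorem Mo.mul {x y : Γ} {σ τ : P6} (h : G.Mo x σ) (h' : G.Mo y τ) : G.Mo (x * y) (σ * τ) := by
  obtain ⟨ε, h, e⟩ := h
  obtain ⟨η, h', e'⟩ := h'
  exact ⟨_, h.mul h' τ id, by rw [map_mul, e, e', sp_mul]; rfl⟩

theorem Mo.inv {x : Γ} {σ : P6} (h : G.Mo x σ) : G.Mo x⁻¹ σ⁻¹ := by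
  obtain ⟨ε, h, e⟩ := h
  exact ⟨_, h.comp _, by rw [φ_inv, e, sp_tr]⟩

theorem Mo.one : G.Mo 1 1 := ⟨_, sg_one, by rw [map_one, sp_one]⟩

theorem Mo.m : G.Mo G.m 1 := ⟨_, sg_one.neg, by rw [G.hm, ← sp_neg, sp_one]⟩

theorem Mo.conj {x y : Γ} {σ τ : P6} (h : G.Mo x σ) (h' : G.Mo y τ) : G.Mo (x * y * x⁻¹) (σ * τ * σ⁻¹) :=
  (h.mul h').mul h.inv

theorem Mo.uniq {x : Γ} {σ τ : P6} (h : G.Mo x σ) (h' : G.Mo x τ) : σ = τ := by
  obtain ⟨ε, h, e⟩ := h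
  obtain ⟨η, -, e'⟩ := h'
  exact (sp_inj h (e.symm.trans e')).1

theorem Mo.pow {x : Γ} {σ : P6} (h : G.Mo x σ) (n : ℕ) : G.Mo (x ^ n) (σ ^ n) := by
  induction n with
  | zero => simpa using Mo.one
  | succ n ih => rw [pow_succ, pow_succ]; exact ih.mul h

theorem Mo.sq {x : Γ} {σ : P6} (h : G.Mo x σ) (hx : x * x = 1) : σ * σ = 1 := (h.mul h).uniq (hx ▸ Mo.one)

theorem Mo.comm {x y : Γ} {σ τ : P6} (h : G.Mo x σ) (h' : G.Mo y τ) (c : x * y = y * x) : σ * τ = τ * σ :=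
  (h.mul h').uniq (c ▸ h'.mul h)

theorem mo_dg {z : Γ} {a b : Fin 6} (h : G.φ z = dg a b) : G.Mo z 1 := ⟨_, sg_sg2 a b, h⟩

theorem Mo.dg {x z : Γ} {σ : P6} {a b : Fin 6} (h : G.Mo x σ) (hz : G.φ z = dg a b) :
    G.φ (x * z * x⁻¹) = dg (σ a) (σ b) := by
  obtain ⟨ε, h, e⟩ := h
  rw [φ_conj, e, hz, sp_dg σ h]

theorem Mo.col {x : Γ} {σ : P6} (h : G.Mo x σ) (i : Fin 6) : G.φ x *ᵥ e i = e (σ i) ∨ G.φ x *ᵥ e i = -e (σ i) := by
  obtain ⟨ε, h, e⟩ := h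
  rw [e, sp_e]; rcases h i with c | c <;> simp [c]

theorem sign_of {x : Γ} {σ : P6} {ε : Fin 6 → K} (e : G.φ x = sp σ ε) : ((Perm.sign σ : ℤ) : K) * ∏ i, ε i = 1 := by
  rw [← sp_det, ← e, G.det]

variable (G)

/-- the frame group -/
def E : Subgroup Γ where
  carrier := {x | G.Mo x 1}
  mul_mem' h h' := by simpa using Mo.mul h h'
  one_mem' := Mo.one
  inv_mem' h := by simpa using Mo.inv h

/-- the monomial group -/
def M : Subgroup Γ where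
  carrier := {x | ∃ σ, G.Mo x σ}
  mul_mem' := fun ⟨_, h⟩ ⟨_, h'⟩ => ⟨_, h.mul h'⟩
  one_mem' := ⟨_, Mo.one⟩
  inv_mem' := fun ⟨_, h⟩ => ⟨_, h.inv⟩

/-- its permutations -/
def X : Subgroup P6 where
  carrier := {σ | ∃ x, G.Mo x σ}
  mul_mem' := fun ⟨_, h⟩ ⟨_, h'⟩ => ⟨_, h.mul h'⟩
  one_mem' := ⟨_, Mo.one⟩
  inv_mem' := fun ⟨_, h⟩ => ⟨_, h.inv⟩

/-- the partner -/
def pt : OG Γ K := G.cj (Q45 G.h) (Q45_ot G.hh)

/-- relabelling -/
def rl (τ : P6) : OG Γ K := G.cj (sp τ fun _ => 1) (sg_one.ot τ)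

/-- conjugation -/
def cg (g : Γ) : OG Γ K := G.cj (G.φ g) (G.ot g)

/-- the centraliser of the bireflection is monomial -/
def Good (a b : Fin 6) : Prop := ∀ z g, G.φ z = dg a b → g * z = z * g → g ∈ G.M

def Yr (a b : Fin 6) : Prop := G.B (e 0) (yv a b)

def Hr (i j k : Fin 6) (t : K) : Prop := t ^ 2 = t + 1 ∧ (5 : K) ≠ 0 ∧ G.B (e 0) (hv i j k t)

def Yb (a b : Fin 6) : Prop := ∃ c s : K, c * c + s * s = 1 ∧ G.B (c • e a + s • e b) (yv a b)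

/-- conjugate into `E` -/
def Zc (x : Γ) : Prop := ∃ g z a b, a ≠ b ∧ G.φ z = dg a b ∧ x = g * z * g⁻¹

/-- `σ` maps the pair `ab` to the pair `cd` -/
def Pr (σ : P6) (a b c d : Fin 6) : Prop := σ a = c ∧ σ b = d ∨ σ a = d ∧ σ b = c

variable {G}

theorem mem_E {x : Γ} : x ∈ G.E ↔ G.Mo x 1 := Iff.rfl
theorem mem_M {x : Γ} : x ∈ G.M ↔ ∃ σ, G.Mo x σ := Iff.rfl
theorem mem_X {σ : P6} : σ ∈ G.X ↔ ∃ x, G.Mo x σ := Iff.rfl
theorem E_le_M : G.E ≤ G.M := fun _ h => ⟨_, h⟩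
theorem m_mem_E : G.m ∈ G.E := Mo.m

theorem conj_E {g x : Γ} (hg : g ∈ G.M) (hx : x ∈ G.E) : g * x * g⁻¹ ∈ G.E := by
  obtain ⟨σ, hg⟩ := hg
  simpa [mem_E] using hg.conj hx

theorem E_sq {x : Γ} (h : x ∈ G.E) : x * x = 1 := by
  obtain ⟨ε, h, e⟩ := h
  exact G.inj (by rw [map_mul, e, sp_mul]; simp [h.sq, sp_one])

theorem E_comm {x y : Γ} (h : x ∈ G.E) (h' : y ∈ G.E) : x * y = y * x := by
  have := E_sq (G.E.mul_mem h h')
  rw [← mul_inv_eq_one, _root_.mul_inv_rev, inv_eq_of_mul_eq_one_right (E_sq h), inv_eq_of_mul_eq_one_right (E_sq h')]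
  simpa [mul_assoc] using this

theorem E_pgroup : IsPGroup 2 G.E := fun ⟨_, h⟩ => ⟨1, Subtype.ext (by simpa [pow_two] using E_sq h)⟩

theorem bi_dg {z : Γ} {a b : Fin 6} (ab : a ≠ b) (h : G.φ z = dg a b) : G.Bi z := ⟨E_sq (mo_dg h), h ▸ trace_dg ab⟩

theorem Bi.conj {x : Γ} (h : G.Bi x) (g : Γ) : G.Bi (g * x * g⁻¹) :=
  ⟨by simp [mul_assoc, ← mul_assoc x x, h.1], by
    rw [map_mul, trace_mul_comm, ← map_mul, inv_mul_cancel_left, h.2]⟩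

theorem four : (4 : K) ≠ 0 ↔ (2 : K) ≠ 0 := by rw [show (4 : K) = 2 * 2 by norm_num]; simp

theorem Bi.ne_one {x : Γ} (h : G.Bi x) : x ≠ 1 := by
  rintro rfl; exact four.2 G.two (by have := h.2; simp at this; linear_combination this)

theorem Bi.not_m {x : Γ} (h : G.Bi x) : ¬ G.Bi (G.m * x) := fun k =>
  four.2 G.two (by have := k.2; simp [G.hm, h.2] at this; linear_combination -this)

theorem Bi.ne_m {x : Γ} (h : G.Bi x) : x ≠ G.m := by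
  rintro rfl
  exact mul_ne_zero G.two (four.2 G.two) (by have := h.2; simp [G.hm] at this; linear_combination -this)

theorem Zc.bi {x : Γ} (h : G.Zc x) : G.Bi x := by
  obtain ⟨g, z, a, b, ab, h, rfl⟩ := h; exact (bi_dg ab h).conj g

theorem Zc.conj {x : Γ} (h : G.Zc x) (k : Γ) : G.Zc (k * x * k⁻¹) := by
  obtain ⟨g, z, a, b, ab, h, rfl⟩ := h; exact ⟨k * g, z, a, b, ab, h, by group⟩

theorem E_cases {x : Γ} (h : x ∈ G.E) : x = 1 ∨ x = G.m ∨ ∃ a b, a ≠ b ∧ (G.φ x = dg a b ∨ G.φ (G.m * x) = dg a b) := by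
  obtain ⟨ε, h, e⟩ := h
  rcases sg_cases G.two h (by simpa using sign_of e) with rfl | rfl | ⟨a, b, ab, rfl | rfl⟩
  · exact .inl (G.inj (by rw [e, sp_one, map_one]))
  · exact .inr (.inl (G.inj (by rw [e, G.hm, ← sp_one, sp_neg])))
  · exact .inr (.inr ⟨a, b, ab, .inl e⟩)
  · exact .inr (.inr ⟨a, b, ab, .inr (by rw [map_mul, G.hm, e, ← sp_neg]; simp [dg])⟩)

theorem Bi.dg {x : Γ} (h : G.Bi x) (hx : x ∈ G.E) : ∃ a b, a ≠ b ∧ G.φ x = dg a b := by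
  rcases E_cases hx with c | c | ⟨a, b, ab, c | c⟩
  exacts [absurd c h.ne_one, absurd c h.ne_m, ⟨a, b, ab, c⟩, absurd (bi_dg ab c) h.not_m]

theorem St.dg (s : G.St) (a b : Fin 6) : ∃ z, G.φ z = dg a b := by simpa [B, rf_e2] using s a b

theorem St.exE (s : G.St) {ε : Fin 6 → K} (h : Sg ε) (hp : ∏ i, ε i = 1) : ∃ x, G.φ x = sp 1 ε := by
  rcases sg_cases G.two h hp with rfl | rfl | ⟨a, b, -, rfl | rfl⟩
  · exact ⟨1, by rw [sp_one, map_one]⟩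
  · exact ⟨G.m, by rw [G.hm, ← sp_one, sp_neg]⟩
  · exact s.dg a b
  · obtain ⟨z, hz⟩ := s.dg a b
    exact ⟨G.m * z, by rw [map_mul, G.hm, hz, ← sp_neg]; simp [O6.dg]⟩

theorem St.exM (s : G.St) {σ : P6} (hσ : σ ∈ G.X) {ε : Fin 6 → K} (h : Sg ε)
    (hp : ((Perm.sign σ : ℤ) : K) * ∏ i, ε i = 1) : ∃ x, G.φ x = sp σ ε := by
  obtain ⟨x, η, h', e⟩ := hσ
  have := sign_of e
  have sq : ((Perm.sign σ : ℤ) : K) * ((Perm.sign σ : ℤ) : K) = 1 := by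
    rcases Int.units_eq_one_or (Perm.sign σ) with c | c <;> simp [c]
  obtain ⟨y, hy⟩ := s.exE (h'.mul h id id) (by
    rw [Finset.prod_mul_distrib]; simp only [id]
    linear_combination (-(∏ i, η i) * ∏ i, ε i) * sq + (((Perm.sign σ : ℤ) : K) * ∏ i, ε i) * this + hp)
  exact ⟨x * y, by rw [map_mul, e, hy, sp_mul]; simp [← mul_assoc, h'.sq]⟩

theorem St.even (s : G.St) {σ : P6} (hσ : σ ∈ G.X) (h : σ * σ = 1) : Perm.sign σ = 1 := by
  rcases inv_odd σ h with c | ⟨a, b, ab, rfl⟩ | ⟨c, d⟩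
  · exact c
  · exfalso
    obtain ⟨x, hx⟩ := s.exM hσ (ε := fun i => if i = a then -1 else 1) (fun i => by by_cases c : i = a <;> simp [c])
      (by simp [ab])
    have n : (e a + e b : W K) ⬝ᵥ (e a + e b) = 2 := by simp [e_self, e_ne ab, e_ne ab.symm]; norm_num
    have k : G.φ x = rf (e a) * rf (e a + e b) := by
      rw [hx]; refine ext_e fun i => ?_
      rw [← mulVec_mulVec, rf_mulVec (e a + e b), n, rf_unit (by simp [e_self]), sp_e]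
      have := G.two
      by_cases c : i = a
      · subst c; ext j; simp [e_self, e_ne ab, e_ne ab.symm, this]
      · by_cases d : i = b
        · subst d; ext j; simp [e_self, e_ne ab, e_ne ab.symm, this, c]; ring
        · ext j; simp [e_ne c, e_ne d, e_ne (Ne.symm c), c, swap_apply_of_ne_of_ne c d]
    rcases G.rot x _ _ (by simp [e_self]) (by rw [n]; exact G.two) k with rfl | c
    · have := (Mo.one (G := G)).uniq ⟨_, fun i => by by_cases c : i = a <;> simp [c], hx⟩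
      exact ab (by simpa using congrArg (· a) this)
    · rw [n] at c
      have : 4 * (e a ⬝ᵥ (e a + e b : W K)) ^ 2 / (e a ⬝ᵥ e a * 2) = 2 := by
        have := G.two; simp [e_self, e_ne ab, e_ne ab.symm]; field_simp; norm_num
      rw [this] at c
      rcases c with c | c | c
      exacts [G.two c, one_ne_zero (by linear_combination c), one_ne_zero (by linear_combination -c.1)]
  · exfalso
    obtain ⟨x, hx⟩ := s.exM hσ (ε := fun i => ((if i < σ i then 1 else -1 : ℤ) : K))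
      (fun i => by by_cases c : i < σ i <;> simp [c]) (by exact_mod_cast congrArg (Int.cast : ℤ → K) d)
    refine G.h2 x ?_
    rw [hx, sp_mul, h, ← sp_one, sp_neg]
    congr 1; ext i; exact_mod_cast congrArg (Int.cast : ℤ → K) (c i)

theorem Mo.inv_cases (s : G.St) {x : Γ} {σ : P6} (h : G.Mo x σ) (hx : x * x = 1) :
    σ = 1 ∨ ∃ τ : P6, σ = τ * (swap 0 1 * swap 2 3) * τ⁻¹ :=
  inv_even σ (h.sq hx) (s.even ⟨x, h⟩ (h.sq hx))

theorem mem_M_of {x : Γ} (h : ∀ i, ∃ j, G.φ x *ᵥ e i = e j ∨ G.φ x *ᵥ e i = -e j) : x ∈ G.M :=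
  exists_sp (G.ot x) h

theorem St.E_le (s : G.St) {Q : M6 K} {hQ : Ot Q} (h : G.E ≤ (G.cj Q hQ).E) : ∃ σ ε, Sg ε ∧ Q = sp σ ε := by
  refine exists_sp hQ fun i => ?_
  obtain ⟨k, -, hk⟩ := eig_e G.two (v := Q *ᵥ e i) (by simp [hQ.dot, e_self]) (fun _ => True) (by simp)
    (by decide) fun a c _ _ _ => by
      obtain ⟨z, hz⟩ := s.dg a c
      have := Mo.col (h (mo_dg hz)) i
      rw [cj_φ, hz, ← mulVec_mulVec, ← mulVec_mulVec] at this
      exact this.imp (fun t => by simpa [mulVec_mulVec, ← mul_assoc, hQ.right] using congrArg (Q *ᵥ ·) t)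
        fun t => by simpa [mulVec_mulVec, ← mul_assoc, hQ.right, mulVec_neg] using congrArg (Q *ᵥ ·) t
  exact ⟨k, hk⟩

theorem ext' {G G' : OG Γ K} (h1 : ∀ x, G.φ x = G'.φ x) (h2 : G.h = G'.h) (h3 : G.m = G'.m) : G = G' := by
  obtain ⟨φ, _, _, h, _, _, _, m, _, _, _, _, _, _, _⟩ := G
  obtain ⟨φ', _, _, h', _, _, _, m', _, _, _, _, _, _, _⟩ := G'
  obtain rfl : φ = φ' := MonoidHom.ext h1
  obtain rfl : h = h' := h2
  obtain rfl : m = m' := h3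
  rfl

theorem cj_mul {Q R : M6 K} {hQ : Ot Q} {hR : Ot R} : (G.cj Q hQ).cj R hR = G.cj (Q * R) (hQ.mul hR) :=
  ext' cj_cj rfl rfl

theorem cj_one {Q : M6 K} {hQ : Ot Q} (h : Q = 1) : G.cj Q hQ = G := ext' (fun x => by simp [cj_φ, h]) rfl rfl

theorem cj_congr {Q R : M6 K} {hQ : Ot Q} (h : Q = R) : G.cj Q hQ = G.cj R (h ▸ hQ) := by subst h; rfl

theorem pt_pt : G.pt.pt = G := by unfold pt; rw [cj_mul]; exact cj_one (Q45_sq G.hh)

theorem cj_Bi {Q : M6 K} {hQ : Ot Q} {x : Γ} : (G.cj Q hQ).Bi x ↔ G.Bi x := by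
  rw [Bi, cj_φ, trace_mul_comm, ← mul_assoc, hQ.right, one_mul, Bi]

theorem sp_Mo {τ σ : P6} {η : Fin 6 → K} (h : Sg η) {x : Γ} : (G.cj _ (h.ot τ)).Mo x σ ↔ G.Mo x (τ * σ * τ⁻¹) := by
  constructor
  · rintro ⟨ε, k, e⟩
    rw [cj_eq, sp_tr, sp_mul, sp_mul] at e
    exact ⟨_, (h.mul k σ id).mul h _ _, e⟩
  · rintro ⟨ε, k, e⟩
    refine ⟨_, ((h.mul k (fun i => τ⁻¹ ((τ * σ * τ⁻¹) i)) id).mul h τ id), ?_⟩
    rw [cj_φ, e, sp_tr, sp_mul, sp_mul]; simp [mul_assoc]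

theorem sp_E {τ : P6} {η : Fin 6 → K} (h : Sg η) : (G.cj _ (h.ot τ)).E = G.E := by
  ext x; simp [mem_E, sp_Mo h]

theorem sp_M {τ : P6} {η : Fin 6 → K} (h : Sg η) : (G.cj _ (h.ot τ)).M = G.M := by
  ext x; simp only [mem_M, sp_Mo h]
  exact ⟨fun ⟨_, h⟩ => ⟨_, h⟩, fun ⟨σ, h⟩ => ⟨τ⁻¹ * σ * τ, by simpa [mul_assoc] using h⟩⟩

theorem sp_St {τ : P6} {η : Fin 6 → K} (h : Sg η) : (G.cj _ (h.ot τ)).St ↔ G.St := by
  simp only [St, cj_B, sp_e]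
  simp only [B, rf_smul (h.ne _)]
  exact ⟨fun k i j => by simpa using k (τ⁻¹ i) (τ⁻¹ j), fun k i j => k _ _⟩

theorem sp_dg' {τ : P6} {η : Fin 6 → K} (h : Sg η) {z : Γ} {a b : Fin 6} :
    (G.cj _ (h.ot τ)).φ z = dg a b ↔ G.φ z = dg (τ a) (τ b) := by rw [cj_eq, sp_dg τ h]

theorem rl_Mo {τ σ : P6} {x : Γ} : (G.rl τ).Mo x σ ↔ G.Mo x (τ * σ * τ⁻¹) := sp_Mo sg_one
theorem rl_X {τ σ : P6} : σ ∈ (G.rl τ).X ↔ τ * σ * τ⁻¹ ∈ G.X := exists_congr fun _ => rl_Mo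
@[simp] theorem rl_E {τ : P6} : (G.rl τ).E = G.E := sp_E sg_one
@[simp] theorem rl_M {τ : P6} : (G.rl τ).M = G.M := sp_M sg_one
@[simp] theorem rl_St {τ : P6} : (G.rl τ).St ↔ G.St := sp_St sg_one
@[simp] theorem rl_Bi {τ : P6} {x : Γ} : (G.rl τ).Bi x ↔ G.Bi x := cj_Bi
@[simp] theorem rl_m {τ : P6} : (G.rl τ).m = G.m := rfl
@[simp] theorem pt_Bi {x : Γ} : G.pt.Bi x ↔ G.Bi x := cj_Bi
@[simp] theorem pt_m : G.pt.m = G.m := rfl
@[simp] theorem cg_Bi {g x : Γ} : (G.cg g).Bi x ↔ G.Bi x := cj_Bi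
@[simp] theorem cg_m {g : Γ} : (G.cg g).m = G.m := rfl
theorem rl_dg {τ : P6} {z : Γ} {a b : Fin 6} : (G.rl τ).φ z = dg a b ↔ G.φ z = dg (τ a) (τ b) := sp_dg' sg_one
theorem rl_B {τ : P6} {u v : W K} : (G.rl τ).B u v ↔ G.B (sp τ (fun _ => 1) *ᵥ u) (sp τ (fun _ => 1) *ᵥ v) := cj_B

theorem rl_Good {τ : P6} {a b : Fin 6} : (G.rl τ).Good a b ↔ G.Good (τ a) (τ b) := by simp only [Good, rl_dg, rl_M]

theorem St.base (s : G.St) {i j : Fin 6} {u : W K} (h : G.B (e i) u) : G.B (e j) u := (s j i).trans h (by simp [e_self])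

theorem rl_rt (s : G.St) {τ : P6} {u : W K} : (G.rl τ).B (e 0) u ↔ G.B (e 0) (sp τ (fun _ => 1) *ᵥ u) := by
  rw [rl_B, sp_e, one_smul]; exact ⟨s.base, s.base⟩

theorem rl_Yr (s : G.St) {τ : P6} {a b : Fin 6} : (G.rl τ).Yr a b ↔ G.Yr (τ a) (τ b) := by rw [Yr, rl_rt s, sp_yv, Yr]

theorem rl_Hr (s : G.St) {τ : P6} {i j k : Fin 6} {t : K} : (G.rl τ).Hr i j k t ↔ G.Hr (τ i) (τ j) (τ k) t := by
  rw [Hr, rl_rt s, sp_hv, Hr]

theorem rl_Yb {τ : P6} {a b : Fin 6} : (G.rl τ).Yb a b ↔ G.Yb (τ a) (τ b) := by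
  simp only [Yb, rl_B, sp_yv, mulVec_add, mulVec_smul, sp_e, one_smul]

theorem rl_Zc {τ : P6} {x : Γ} : (G.rl τ).Zc x ↔ G.Zc x := by
  simp only [Zc, rl_dg]
  exact ⟨fun ⟨g, z, a, b, ab, h, e⟩ => ⟨g, z, _, _, τ.injective.ne ab, h, e⟩,
    fun ⟨g, z, a, b, ab, h, e⟩ => ⟨g, z, τ⁻¹ a, τ⁻¹ b, τ⁻¹.injective.ne ab, by simpa using h, e⟩⟩

theorem cg_φ {g x : Γ} : (G.cg g).φ x = G.φ (g⁻¹ * x * g) := cj_g g x
theorem cg_Mo {g x : Γ} {σ : P6} : (G.cg g).Mo x σ ↔ G.Mo (g⁻¹ * x * g) σ := by simp only [Mo, cg_φ]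
theorem cg_E {g x : Γ} : x ∈ (G.cg g).E ↔ g⁻¹ * x * g ∈ G.E := cg_Mo
theorem cg_M {g x : Γ} : x ∈ (G.cg g).M ↔ g⁻¹ * x * g ∈ G.M := exists_congr fun _ => cg_Mo

theorem cg_X {g : Γ} : (G.cg g).X = G.X := by
  ext σ; simp only [mem_X, cg_Mo]
  exact ⟨fun ⟨_, h⟩ => ⟨_, h⟩, fun ⟨x, h⟩ => ⟨g * x * g⁻¹, by simpa [mul_assoc] using h⟩⟩

theorem St.cg (s : G.St) (g : Γ) : (G.cg g).St := fun i j => cj_B.2 ((s i j).conj g)

/-- `M` is the normaliser of `E` -/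
theorem St.mem_M (s : G.St) {g : Γ} (h : ∀ x ∈ G.E, g⁻¹ * x * g ∈ G.E) : g ∈ G.M :=
  s.E_le (hQ := G.ot g) fun x hx => cg_E.2 (h x hx)

end OG

end Cfsg.Agent.O6
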