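import Cfsg.Agent.O6.R2
import Cfsg.Agent.O6.P2

/-! The root system of a frame. -/

set_option autoImplicit false

namespace Cfsg.Agent.O6

open Matrix Equiv

variable {Γ K : Type*} [Group Γ] [Field K]

theorem al_quarter (two : (2 : K) ≠ 0) {b : K} (h : Al b) (hb : 4 * b = 1) : (3 : K) = 0 := by
  rcases h with rfl | rfl | ⟨h, h5⟩
  · simp at hb
  · linear_combination hb
  · exact absurd (by linear_combination 16 * h - (4 * b - 11) * hb) h5

theorem al_sum (two : (2 : K) ≠ 0) {b c : K} (h : Al b) (h' : Al c) (e : b + c = 4) : b = 0 ∨ c = 0 := by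
  rcases h with rfl | rfl | ⟨h, -⟩
  · exact .inl rfl
  · rcases h' with rfl | rfl | ⟨h', -⟩
    · exact .inr rfl
    · exact absurd (by linear_combination -e) two
    · exact absurd (by linear_combination h' - c * e) (one_ne_zero (α := K))
  · rcases h' with rfl | rfl | ⟨h', -⟩
    · exact .inr rfl
    · exact absurd (by linear_combination h - b * e) (one_ne_zero (α := K))
    · have : b = 2 := mul_left_cancel₀ two (by linear_combination h - h' + (c - b + 1) * e)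
      exact absurd (by rw [this] at h; linear_combination -h) (one_ne_zero (α := K))

theorem not_al_two (two : (2 : K) ≠ 0) : ¬ Al (2 : K) := by
  rintro (c | c | c)
  exacts [two c, one_ne_zero (by linear_combination c), one_ne_zero (by linear_combination -c.1)]

theorem Gold.ne {y : K} (h : Gold y) : y ≠ 0 := by rintro rfl; simpa using h.1

theorem Gold.not_al (two : (2 : K) ≠ 0) {y : K} (h : Gold y) : ¬ Al (y * y) := by
  rintro (c | c | c)
  · exact mul_ne_zero h.ne h.ne c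
  · exact h.2 (by linear_combination -(3 * y + 2) * h.1 + (3 * y - 7) * c)
  · exact mul_ne_zero (OG.four.2 two) (mul_ne_zero h.ne h.ne) (by linear_combination c.1 - (y ^ 2 + 3 * y + 1) * h.1 + 0 * c.1 + (4 * y * y - 4 * y ^ 2))

theorem Gold.other {y : K} (h : Gold y) : Gold (3 - y) := ⟨by linear_combination h.1, h.2⟩

theorem rf2_apply {u v : W K} (hu : u ⬝ᵥ u = 1) (hv : v ⬝ᵥ v = 1) (h : u ⬝ᵥ v = 0) (i j : Fin 6) :
    (rf u * rf v) i j = (if i = j then 1 else 0) - 2 * (u i * u j) - 2 * (v i * v j) := by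
  rw [← mulVec_e (rf u * rf v), ← mulVec_mulVec, rf_unit hv, mulVec_sub, mulVec_smul, rf_perp h, rf_unit hu]
  simp [e_apply]; ring

theorem rf_dot {u : W K} (h : u ⬝ᵥ u = 1) (v w : W K) : (rf u *ᵥ v) ⬝ᵥ (rf u *ᵥ w) = v ⬝ᵥ w :=
  Ot.dot (by rw [Ot, rf_tr, rf_sq (by simp [h])]) v w

theorem rf_e_apply {u : W K} (h : u ⬝ᵥ u = 1) (i j : Fin 6) : (rf u *ᵥ e i) j = e i j - 2 * u i * u j := by
  rw [rf_unit h]; simp

theorem ee (i : Fin 6) : (e i : W K) ⬝ᵥ e i = 1 := by simp [e_self]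

theorem ee' (i : Fin 6) : (e i : W K) ⬝ᵥ e i ≠ 0 := by simp [e_self]

theorem quad {v c : W K} (hv : v ⬝ᵥ v = 1) (hc : c ⬝ᵥ c = 0) (h : v ⬝ᵥ c = 0) (w : W K) :
    (rf v * rf (v + c)) *ᵥ w = w + (2 * (c ⬝ᵥ w)) • v - (2 * (v ⬝ᵥ w + c ⬝ᵥ w)) • c := by
  have : (v + c) ⬝ᵥ (v + c) = 1 := by simp [hv, hc, h, dotProduct_comm c v]
  rw [← mulVec_mulVec, rf_unit this, rf_unit hv]
  ext i; simp [hv, h]; ring

namespace OG

variable {G : OG Γ K}

theorem sq' {v v' c : W K} (h : G.B v (v + c)) (h' : G.B v' (v' + c)) (h0 : c ≠ 0) (hc : c ⬝ᵥ c = 0) (h1 : v ⬝ᵥ c = 0)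
    (h2 : v' ⬝ᵥ c = 0) (hv : v ⬝ᵥ v = 1) (hv' : v' ⬝ᵥ v' = 1) : ∃ l : K, v' = v + l • c ∨ v' = -v + l • c := by
  obtain ⟨x, hx⟩ := h
  obtain ⟨y, hy⟩ := h'
  obtain ⟨i, hi⟩ : ∃ i, c i ≠ 0 := by by_contra! n; exact h0 (funext n)
  obtain ⟨w, hw⟩ : ∃ w, c ⬝ᵥ w = 1 := ⟨(c i)⁻¹ • e i, by simp [hi]⟩
  have a := quad hv hc h1
  have b := quad hv' hc h2 w
  have two := G.two
  rw [← hx] at a; rw [← hy, hw] at b
  rcases G.sq x y v v' c h0 hc h1 h2 hv hv' hx hy with rfl | rfl | rfl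
  · have := congrArg (v' ⬝ᵥ ·) b
    simp [hv', h2] at this; exact absurd this two
  · refine ⟨v' ⬝ᵥ w - v ⬝ᵥ w, .inl (funext fun j => mul_left_cancel₀ two ?_)⟩
    have := congrFun ((a w).symm.trans b) j
    simp only [hw, Pi.add_apply, Pi.sub_apply, Pi.smul_apply, smul_eq_mul] at this ⊢; linear_combination -this
  · have := congrArg (G.φ x *ᵥ ·) b
    rw [mulVec_mulVec, ← map_mul, mul_inv_cancel, map_one, one_mulVec, mulVec_sub, mulVec_add, mulVec_smul, mulVec_smul, a, a, a,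
      hw, hc, h1, dotProduct_comm c v', h2] at this
    refine ⟨v ⬝ᵥ w + 1 + 2 * (v ⬝ᵥ v') + (v' ⬝ᵥ w + 1), .inr (funext fun j => mul_left_cancel₀ two ?_)⟩
    have := congrFun this j
    simp only [Pi.add_apply, Pi.sub_apply, Pi.smul_apply, smul_eq_mul, Pi.neg_apply] at this ⊢; linear_combination -this

theorem B.act {u v : W K} (h : G.B u v) {x : Γ} {Q : M6 K} (hx : G.φ x = Q) : G.B (Q *ᵥ u) (Q *ᵥ v) := hx ▸ h.conj x

theorem St.refl (s : G.St) {u v : W K} (h : G.B (e 0) u) (h' : G.B (e 0) v) (hu : u ⬝ᵥ u = 1) : G.B (e 0) (rf u *ᵥ v) :=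
  h.refl h' (ee' 0) (by simp [hu])

theorem St.mo (s : G.St) {u : W K} (h : G.B (e 0) u) {x : Γ} {σ : P6} {ε : Fin 6 → K} (hε : Sg ε) (hx : G.φ x = sp σ ε) :
    G.B (e 0) (sp σ ε *ᵥ u) := by
  have := h.act hx
  rw [sp_e, B, rf_smul (hε.ne _)] at this
  exact s.base this

theorem St.sgn (s : G.St) {u : W K} (h : G.B (e 0) u) {ε : Fin 6 → K} (hε : Sg ε) : G.B (e 0) (sp 1 ε *ᵥ u) := by
  rcases mul_self_eq_one_iff.1 hε.prod with c | c
  · obtain ⟨x, hx⟩ := s.exE hε c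
    exact s.mo h hε hx
  · have k : Sg fun i => if i = (0 : Fin 6) then (-1 : K) else 1 := fun i => by by_cases c : i = 0 <;> simp [c]
    obtain ⟨x, hx⟩ := s.exE (hε.mul k id id) (by rw [Finset.prod_mul_distrib]; simp [c])
    have := s.mo (s.refl (s 0 0) h (ee 0)) (hε.mul k id id) hx
    rw [rf_e, mulVec_mulVec, sp_mul] at this
    refine (congrArg (fun η => G.B (e 0) (sp 1 η *ᵥ u)) (funext fun i => ?_)).mp this
    by_cases c : i = 0 <;> simp [c]

theorem St.sgn' (s : G.St) {u v : W K} (h : G.B (e 0) u) (k : ∀ i, v i * v i = u i * u i) : G.B (e 0) v := by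
  have : ∀ i, ∃ c : K, (c = 1 ∨ c = -1) ∧ v i = c * u i := fun i =>
    (mul_self_eq_mul_self_iff.1 (k i)).elim (fun h => ⟨1, .inl rfl, by simp [h]⟩) fun h => ⟨-1, .inr rfl, by simp [h]⟩
  choose ε h1 h2 using this
  convert s.sgn h h1
  ext i; rw [h2]; exact (sp_mulVec 1 ε u i).symm

theorem St.act (s : G.St) {σ : P6} (hσ : σ ∈ G.X) {u : W K} (h : G.B (e 0) u) : G.B (e 0) (sp σ (fun _ => 1) *ᵥ u) := by
  obtain ⟨x, ε, hε, hx⟩ := hσ
  refine s.sgn' (s.mo h hε hx) fun i => ?_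
  rw [sp_mulVec', sp_mulVec']; linear_combination (-u (σ⁻¹ i) ^ 2) * hε.sq (σ⁻¹ i)

theorem Yr.act (s : G.St) {σ : P6} (hσ : σ ∈ G.X) {a b : Fin 6} (h : G.Yr a b) : G.Yr (σ a) (σ b) := by
  rw [Yr, ← sp_yv]; exact s.act hσ h

theorem Hr.act (s : G.St) {σ : P6} (hσ : σ ∈ G.X) {i j k : Fin 6} {t : K} (h : G.Hr i j k t) : G.Hr (σ i) (σ j) (σ k) t :=
  ⟨h.1, h.2.1, by rw [← sp_hv]; exact s.act hσ h.2.2⟩

theorem St.al (s : G.St) {u : W K} (hu : u ⬝ᵥ u = 1) (h : G.B (e 0) u) (i : Fin 6) : u = e i ∨ u = -e i ∨ Al (4 * u i ^ 2) := by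
  simpa using (s.base (j := i) h).al (ee i) hu

theorem St.noyy (s : G.St) {u : W K} (hu : u ⬝ᵥ u = 1) (h : G.B (e 0) u) {i j : Fin 6} (ij : i ≠ j) {y : K} (g : Gold y)
    (hi : 4 * u i ^ 2 = y) (hj : 4 * u j ^ 2 = y) : False := by
  have k : ¬ (rf u *ᵥ e i) i = 0 := fun c => by
    rw [rf_unit hu] at c; simp [e_self] at c
    exact not_al_two G.two (.inr (.inr (by convert g; linear_combination 2 * c + hi)))
  rcases s.al (by rw [rf_dot hu, ee]) (s.refl h (s 0 i) hu) j with c | c | c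
  · exact k (by rw [c, e_ne ij])
  · exact k (by rw [c]; simp [e_ne ij])
  · refine g.not_al G.two ?_
    convert c using 1
    rw [rf_e_apply hu, e_ne ij.symm]; linear_combination -(4 * u j ^ 2) * hi - y * hj

theorem St.pat (s : G.St) {u : W K} (hu : u ⬝ᵥ u = 1) (h : G.B (e 0) u) : (∃ i, u = e i ∨ u = -e i) ∨
    (∃ a b, a ≠ b ∧ G.Yr a b ∧ ∀ l, u l = 0 ↔ l = a ∨ l = b) ∨
    ∃ i j k t, i ≠ j ∧ i ≠ k ∧ j ≠ k ∧ G.Hr i j k t ∧ ∀ l, u l ≠ 0 ↔ l = i ∨ l = j ∨ l = k := by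
  have two := G.two
  have f4 := four.2 two
  by_cases n : ∃ i, u = e i ∨ u = -e i
  · exact .inl n
  have hA : ∀ i, Al (4 * u i ^ 2) := fun i => ((s.al hu h i).resolve_left fun c => n ⟨i, .inl c⟩).resolve_left
    fun c => n ⟨i, .inr c⟩
  obtain ⟨y, hy⟩ : ∃ y, ∀ i, Gold (4 * u i ^ 2) → Gold y ∧ (4 * u i ^ 2 = y ∨ 4 * u i ^ 2 = 3 - y) := by
    by_cases c : ∃ k, Gold (4 * u k ^ 2)
    · obtain ⟨k, hk⟩ := c
      refine ⟨_, fun i hi => ⟨hk, ?_⟩⟩
      rcases mul_eq_zero.1 (show (4 * u i ^ 2 - 4 * u k ^ 2) * (4 * u i ^ 2 - (3 - 4 * u k ^ 2)) = 0 by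
        linear_combination hi.1 - hk.1) with d | d
      exacts [.inl (sub_eq_zero.1 d), .inr (sub_eq_zero.1 d)]
    · exact ⟨0, fun i hi => absurd ⟨i, hi⟩ c⟩
  have : ∀ i, ∃ c : Fin 4, 4 * u i ^ 2 = ![0, 1, y, 3 - y] c ∧ (2 ≤ c → Gold y) := fun i => by
    rcases hA i with c | c | c
    · exact ⟨0, c, fun d => absurd d (by decide)⟩
    · exact ⟨1, c, fun d => absurd d (by decide)⟩
    · rcases hy i c with ⟨g, d | d⟩
      exacts [⟨2, d, fun _ => g⟩, ⟨3, d, fun _ => g⟩]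
  choose c h1 h2 using this
  have gd : ∀ i, 2 ≤ c i → Gold (4 * u i ^ 2) := fun i hi => by
    have := h2 i hi
    rw [h1]; generalize c i = d at hi; fin_cases d
    exacts [absurd hi (by decide), absurd hi (by decide), this, this.other]
  have sm : ((∑ i, (![0, 1, 0, 3] (c i) : ℤ) : ℤ) : K) + ((∑ i, (![0, 0, 1, -1] (c i) : ℤ) : ℤ) : K) * y = 4 := by
    have : ∑ i, 4 * u i ^ 2 = 4 := by rw [← Finset.mul_sum]; simp only [pow_two]; rw [← dotProduct, hu, mul_one]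
    rw [← this]; push_cast; rw [Finset.sum_mul, ← Finset.sum_add_distrib]
    refine Finset.sum_congr rfl fun i _ => ?_
    rw [h1]; generalize c i = d; fin_cases d <;> simp; ring
  have z : ∀ l, c l = 0 → u l = 0 := fun l hl => by simpa [hl, f4] using h1 l
  rcases pat_cases c (fun i j e1 e2 => by_contra fun ij => s.noyy hu h ij (gd i e2) rfl (by rw [h1, h1, e1]))
    (fun i j k e1 e2 e3 => by_contra fun ij => by
      have ik : i ≠ k := by rintro rfl; rw [e1] at e3; exact absurd e3 (by decide)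
      have jk : j ≠ k := by rintro rfl; rw [e2] at e3; exact absurd e3 (by decide)
      have a1 := h1 i; have a2 := h1 j
      rw [e1] at a1; rw [e2] at a2
      simp only [Fin.isValue, cons_val_one, cons_val_zero] at a1 a2
      refine s.noyy (by rw [rf_dot hu, ee]) (s.refl h (s 0 k) hu) ij (gd k e3) ?_ ?_ <;> rw [rf_e_apply hu] <;>
        simp only [e_ne ik, e_ne jk]
      exacts [by linear_combination (4 * u k ^ 2) * a1, by linear_combination (4 * u k ^ 2) * a2]) with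
    ⟨i, j, k, ij, ik, jk, d⟩ | ⟨a, b, ab, d⟩ | ⟨i, d⟩ | ⟨d1, d2⟩ | ⟨⟨i, hi⟩, ⟨d1, d2⟩ | ⟨d1, d2⟩⟩
  · have g : Gold y := h2 j (by rw [d]; simp [ij.symm])
    have a1 : 4 * u j ^ 2 = y := by rw [h1, d]; simp [ij.symm]
    obtain ⟨t, t1, t2⟩ : ∃ t : K, t ^ 2 = t + 1 ∧ t ^ 2 = y := by
      rcases mul_eq_zero.1 (show ((2 * u j) ^ 2 - 2 * u j - 1) * ((2 * u j) ^ 2 + 2 * u j - 1) = 0 by
        linear_combination g.1 + (4 * u j ^ 2 + y - 3) * a1) with d | d
      exacts [⟨2 * u j, by linear_combination d, by linear_combination a1⟩,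
        ⟨-(2 * u j), by linear_combination d, by linear_combination a1⟩]
    have q : ∀ l, hv i j k t l * hv i j k t l = u l * u l := fun l => mul_left_cancel₀ f4 (by
      rw [← pow_two (u l), h1, d, hv]; split_ifs <;> simp <;> field_simp
      exacts [by norm_num, by linear_combination 4 * t2, by linear_combination -4 * t2 + 8 * t1])
    refine .inr (.inr ⟨i, j, k, t, ij, ik, jk, ⟨t1, g.2, s.sgn' h q⟩, fun l => ⟨fun hl => ?_, fun hl e0 => ?_⟩⟩)
    · by_contra! m; exact hl (z l (by rw [d]; simp [m]))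
    · have := h1 l
      rw [e0, d] at this
      rcases hl with rfl | rfl | rfl <;> simp [ij.symm, ik.symm, jk.symm] at this
      exacts [g.ne this.symm, g.other.ne this.symm]
  · have q : ∀ l, yv a b l * yv a b l = u l * u l := fun l => mul_left_cancel₀ f4 (by
      rw [← pow_two (u l), h1, d, yv]; split_ifs <;> simp; field_simp; norm_num)
    refine .inr (.inl ⟨a, b, ab, s.sgn' h q, fun l => ⟨fun hl => ?_, fun hl => z l (by rw [d, if_pos hl])⟩⟩)
    by_contra m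
    have := h1 l
    rw [hl, d, if_neg m] at this; simp at this
  · exact absurd ⟨i, unit_e hu fun l hl => z l (d l hl)⟩ n
  · exfalso
    rw [d1] at sm
    simp only [List.mem_cons, List.not_mem_nil, or_false] at d2
    rcases d2 with d2 | d2 | d2 | d2 <;> rw [d2] at sm <;> push_cast at sm
    exacts [two (by linear_combination -sm), one_ne_zero (by linear_combination -sm),
      one_ne_zero (by linear_combination sm), two (by linear_combination sm)]
  · rw [d1, d2] at sm; push_cast at sm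
    exact absurd (by linear_combination (h2 i hi).1 - y * sm) (one_ne_zero (α := K))
  · rw [d1, d2] at sm; push_cast at sm
    exact absurd (by linear_combination -sm) (h2 i hi).ne

end OG

end Cfsg.Agent.O6
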