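import Cfsg.Agent.O6.R3

/-! Configurations of roots that cannot occur. -/

set_option autoImplicit false

namespace Cfsg.Agent.O6

open Matrix Equiv

variable {Γ K : Type*} [Group Γ] [Field K]

theorem e0v : (e 0 : W K) = ![1, 0, 0, 0, 0, 0] := by ext i; fin_cases i <;> simp [e]
theorem e1v : (e 1 : W K) = ![0, 1, 0, 0, 0, 0] := by ext i; fin_cases i <;> simp [e]
theorem e2v : (e 2 : W K) = ![0, 0, 1, 0, 0, 0] := by ext i; fin_cases i <;> simp [e]
theorem e3v : (e 3 : W K) = ![0, 0, 0, 1, 0, 0] := by ext i; fin_cases i <;> simp [e]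

theorem dot6 (u v : W K) : u ⬝ᵥ v = u 0 * v 0 + u 1 * v 1 + u 2 * v 2 + u 3 * v 3 + u 4 * v 4 + u 5 * v 5 := by
  simp [dotProduct, Fin.sum_univ_six]

theorem rf2_gen {u v : W K} (hu : u ⬝ᵥ u = 1) (hv : v ⬝ᵥ v = 1) {d : K} (h : u ⬝ᵥ v = d) (i j : Fin 6) :
    (rf u * rf v) i j = (if i = j then 1 else 0) - 2 * (u i * u j) - 2 * (v i * v j) + 4 * d * (u i * v j) := by
  rw [← mulVec_e (rf u * rf v), ← mulVec_mulVec, rf_unit hv, rf_unit hu]
  simp [e_apply, h]; ring

theorem ex_half (two : (2 : K) ≠ 0) : ∃ q : K, 1 / 2 = q ∧ 2 * q = 1 := ⟨_, rfl, by field_simp⟩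

theorem yv01 {q : K} (h : 1 / 2 = q) : yv 0 1 = ![0, 0, q, q, q, q] := by ext i; fin_cases i <;> simp [yv, ← h]

theorem hv012 {q : K} (h : 1 / 2 = q) (t : K) : hv 0 1 2 t = ![q, q * t, q * (t - 1), 0, 0, 0] := by
  ext i; fin_cases i <;> simp [hv, ← h] <;> ring

namespace OG

variable {G : OG Γ K}

theorem St.al2 (s : G.St) {u v : W K} (h : G.B (e 0) u) (h' : G.B (e 0) v) (hu : u ⬝ᵥ u = 1) (hv : v ⬝ᵥ v = 1)
    (n1 : v ≠ u) (n2 : v ≠ -u) : Al (4 * (u ⬝ᵥ v) ^ 2) :=
  (((h.symm.trans h' (ee' 0)).al hu hv).resolve_left n1).resolve_left n2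

theorem St.starY0 (s : G.St) (h : G.Yr 0 1) (h' : G.Yr 0 2) : False := by
  obtain ⟨q, hq, q2⟩ := ex_half G.two
  have q0 : q ≠ 0 := right_ne_zero_of_mul_eq_one q2
  rw [Yr, yv01 hq] at h
  have k : G.B (e 0) ![0, q, 0, q, q, -q] := s.sgn' h' fun i => by fin_cases i <;> simp [yv, ← hq]
  have p3 := al_quarter G.two (s.al2 h k (by simp [dot6]; linear_combination (2 * q + 1) * q2)
    (by simp [dot6]; linear_combination (2 * q + 1) * q2) (fun c => q0 (by simpa using congrFun c 1))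
    (fun c => q0 (by simpa using congrFun c 1)))
    (by simp [dot6]; linear_combination (8 * q ^ 3 + 4 * q ^ 2 + 2 * q + 1) * q2)
  have qq : q * q = 1 := by linear_combination (2 * q + 1) * q2 - q * q * p3
  obtain ⟨l, c | c⟩ := sq' (G := G) (v := e 2) (v' := e 1) (c := ![0, 0, 0, 1, 1, 1])
    (s.base (s.sgn' h fun i => by fin_cases i <;> simp [e2v, qq]))
    (s.base (s.sgn' k fun i => by fin_cases i <;> simp [e1v, qq])) (fun c => by simpa using congrFun c 3)
    (by simp [dot6]; linear_combination p3) (by rw [e_dot]; rfl) (by rw [e_dot]; rfl) (ee 2) (ee 1) <;>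
  simpa [e1v, e2v] using congrFun c 1

theorem St.starY (s : G.St) {a b c : Fin 6} (ab : a ≠ b) (ac : a ≠ c) (bc : b ≠ c) (h : G.Yr a b) (h' : G.Yr a c) : False := by
  obtain ⟨τ, rfl, rfl, rfl⟩ := ex3 ab ac bc
  exact (rl_St.2 s).starY0 ((rl_Yr s).2 h) ((rl_Yr s).2 h')

theorem Yr.symm {a b : Fin 6} (h : G.Yr a b) : G.Yr b a := by
  rwa [Yr, show (yv b a : W K) = yv a b from funext fun i => by simp [yv, or_comm]]

theorem Yb.symm {a b : Fin 6} (h : G.Yb a b) : G.Yb b a := by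
  obtain ⟨c, s, h1, h2⟩ := h
  exact ⟨s, c, by linear_combination h1, by
    rwa [show (yv b a : W K) = yv a b from funext fun i => by simp [yv, or_comm], add_comm]⟩

theorem Yr.yb (s : G.St) {a b : Fin 6} (h : G.Yr a b) : G.Yb a b := ⟨1, 0, by simp, by simpa using s.base h⟩

variable (G) in
/-- supports of roots of type `H₃` -/
def Hs (i j k : Fin 6) : Prop := i ≠ j ∧ i ≠ k ∧ j ≠ k ∧ ∃ t, G.Hr i j k t

theorem rl_Hs (s : G.St) {τ : P6} {i j k : Fin 6} : (G.rl τ).Hs i j k ↔ G.Hs (τ i) (τ j) (τ k) := by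
  simp only [Hs, rl_Hr s, τ.injective.ne_iff]

theorem Hs.act (s : G.St) {σ : P6} (hσ : σ ∈ G.X) {i j k : Fin 6} (h : G.Hs i j k) : G.Hs (σ i) (σ j) (σ k) := by
  obtain ⟨a, b, c, t, h⟩ := h
  exact ⟨σ.injective.ne a, σ.injective.ne b, σ.injective.ne c, t, h.act s hσ⟩

theorem Hr.unit {t q : K} (h : t ^ 2 = t + 1) (q2 : 2 * q = 1) {a b c : K} (h1 : a * a = q * q) (h2 : b * b = q * t * (q * t))
    (h3 : c * c = q * (t - 1) * (q * (t - 1))) : a * a + b * b + c * c = 1 := by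
  rw [h1, h2, h3]; linear_combination (2 * q * q) * h + (2 * q + 1) * q2

theorem Hr.shift (s : G.St) {t : K} (h : G.Hr 0 1 2 t) : G.Hr 2 0 1 t := by
  obtain ⟨q, hq, q2⟩ := ex_half G.two
  obtain ⟨h1, h5, h⟩ := h
  rw [hv012 hq] at h
  have u : (![q, q * t, q * (t - 1), 0, 0, 0] : W K) ⬝ᵥ ![q, q * t, q * (t - 1), 0, 0, 0] = 1 := by
    simp only [dot6]; simp; exact Hr.unit h1 q2 rfl rfl rfl
  have e1 : rf ![q, q * t, q * (t - 1), 0, 0, 0] *ᵥ e 1 = ![-(q * t), -(q * (t - 1)), -q, 0, 0, 0] := by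
    ext i; rw [rf_e_apply u]; fin_cases i <;> simp [e1v]
    exacts [by linear_combination (q * t) * q2, by linear_combination -(q * t ^ 2 + 1) * q2 - q * h1,
      by linear_combination (q * t * (t - 1)) * q2 + q * h1]
  refine ⟨h1, h5, s.sgn' (e1 ▸ s.refl h (s 0 1) u) fun i => ?_⟩
  fin_cases i <;> simp [hv, ← hq] <;> ring

theorem Hs.rot (s : G.St) {i j k : Fin 6} (h : G.Hs i j k) : G.Hs k i j := by
  obtain ⟨τ, rfl, rfl, rfl⟩ := ex3 h.1 h.2.1 h.2.2.1
  obtain ⟨-, -, -, t, h⟩ := (rl_Hs s).2 h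
  exact (rl_Hs s).1 ⟨by decide, by decide, by decide, t, h.shift (rl_St.2 s)⟩

theorem Hs.flip (s : G.St) {i j k : Fin 6} (h : G.Hs i j k) : G.Hs i k j := by
  obtain ⟨a, b, c, t, h1, h5, h⟩ := h
  refine ⟨b, a, c.symm, 1 - t, by linear_combination h1, h5, s.sgn' h fun l => ?_⟩
  by_cases x : l = i
  · simp [hv, x]
  by_cases y : l = j
  · simp [hv, y, a.symm, c]; ring
  by_cases z : l = k
  · simp [hv, z, b.symm, c.symm]; ring
  · simp [hv, x, y, z]

theorem Hr.cyc (s : G.St) {t : K} (h : G.Hr 0 1 2 t) : swap 1 2 * swap 0 1 ∈ G.X := by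
  obtain ⟨q, hq, q2⟩ := ex_half G.two
  have a : G.B (e 0) ![q, -(q * t), q * (t - 1), 0, 0, 0] := s.sgn' h.2.2 fun i => by
    rw [hv012 hq]; fin_cases i <;> simp
  have b : G.B (e 0) ![-(q * t), q * (t - 1), q, 0, 0, 0] := s.sgn' (h.shift s).2.2 fun i => by
    fin_cases i <;> simp [hv, ← hq] <;> ring
  obtain ⟨x, hx⟩ := a.symm.trans b (ee' 0)
  have h1 := h.1
  have qq : 4 * q * q = 1 := by linear_combination (2 * q + 1) * q2
  refine ⟨x, _, sg_one, hx.trans (Matrix.ext fun i j => ?_)⟩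
  rw [rf2_gen (d := -q) (by simp only [dot6]; simp; linear_combination (2 * q * q) * h1 + qq)
    (by simp only [dot6]; simp; linear_combination (2 * q * q) * h1 + qq)
    (by simp only [dot6]; simp; linear_combination -(q * q) * h1 - q * q2)]
  fin_cases i <;> fin_cases j <;> simp [sp, swap_apply_def] <;> grind

theorem Hs.cyc (s : G.St) {i j k : Fin 6} (h : G.Hs i j k) : swap j k * swap i j ∈ G.X := by
  obtain ⟨τ, rfl, rfl, rfl⟩ := ex3 h.1 h.2.1 h.2.2.1
  obtain ⟨-, -, -, t, h⟩ := (rl_Hs s).2 h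
  simpa only [← conj_mul, ← swap_apply_apply] using rl_X.1 (h.cyc (rl_St.2 s))

theorem Hr.odd (s : G.St) {t : K} (h : G.Hr 0 1 2 t) (h' : G.Hr 1 0 2 t) : False := by
  obtain ⟨q, hq, q2⟩ := ex_half G.two
  have q0 : q ≠ 0 := right_ne_zero_of_mul_eq_one q2
  obtain ⟨h1, h5, h⟩ := h
  rw [hv012 hq] at h
  have qq : 4 * q * q = 1 := by linear_combination (2 * q + 1) * q2
  have k : ∀ a b : K, a * a = 1 → b * b = 1 → Al (4 * (q * q * (t + a * t + b * (2 - t))) ^ 2) := fun a b ha hb => by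
    have := s.al2 h (v := ![q * t, a * q, b * (q * (t - 1)), 0, 0, 0]) (s.sgn' h'.2.2 fun i => by
        fin_cases i <;> simp [hv, ← hq]
        exacts [by ring, by linear_combination (2⁻¹ * 2⁻¹) * ha, by linear_combination (2⁻¹ * (t - 1)) ^ 2 * hb])
      (by simp only [dot6]; simp; exact Hr.unit h1 q2 rfl rfl rfl)
      (by simp only [dot6]; simp; linear_combination (2 * q * q) * h1 + qq + q * q * ha + (q * (t - 1)) ^ 2 * hb)
      (fun c => by
        have : t = 1 := mul_left_cancel₀ q0 (by simpa using congrFun c 0)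
        rw [this] at h1; exact one_ne_zero (α := K) (by linear_combination -h1))
      (fun c => by
        have : t = -1 := mul_left_cancel₀ q0 (by simpa using congrFun c 0)
        rw [this] at h1; exact one_ne_zero (α := K) (by linear_combination h1))
    convert this using 3
    simp only [dot6]; simp; linear_combination -(b * q * q) * h1
  have k1 := k (-1) 1 (by simp) (by simp)
  have k2 : 5 * t + 4 = 0 → (3 : K) = 0 := fun c => al_quarter G.two (k 1 1 (by simp) (by simp)) (by grind)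
  have k3 : 12 - 3 * t = 0 → (3 : K) = 0 := fun c => al_quarter G.two (k 1 (-1) (by simp) (by simp)) (by grind)
  obtain ⟨b, hb, e1⟩ : ∃ b, Al b ∧ 4 * b = 5 - 3 * t := ⟨_, k1, by grind⟩
  rcases hb with rfl | rfl | ⟨g, -⟩
  · grind
  · have p : (11 : K) = 0 := by linear_combination (3 * t - 2) * e1 - 9 * h1
    exact one_ne_zero (α := K) (by linear_combination 4 * k3 (by linear_combination p - e1) - p)
  · have a : 3 * t - 2 = 0 := mul_left_cancel₀ h5 (by linear_combination 16 * g - (4 * b - 7 - 3 * t) * e1 - 9 * h1)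
    have p : (11 : K) = 0 := by linear_combination (3 * t - 1) * a - 9 * h1
    exact one_ne_zero (α := K) (by linear_combination 4 * k2 (by linear_combination 20 * a + (4 - 5 * t) * p) - p)

theorem Hs.odd (s : G.St) {σ : P6} (hσ : σ ∈ G.X) {i j k : Fin 6} (h : G.Hs i j k) (h1 : σ i = j) (h2 : σ j = i)
    (h3 : σ k = k) : False := by
  obtain ⟨a, b, c, t, h⟩ := h
  have h' := h.act s hσ
  rw [h1, h2, h3] at h'
  obtain ⟨τ, rfl, rfl, rfl⟩ := ex3 a b c
  exact ((rl_Hr s).2 h).odd (rl_St.2 s) ((rl_Hr s).2 h')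

theorem Hr.star (s : G.St) {t t' : K} (h : G.Hr 0 1 2 t) (h' : G.Hr 0 3 4 t') : False := by
  obtain ⟨q, hq, q2⟩ := ex_half G.two
  have q0 : q ≠ 0 := right_ne_zero_of_mul_eq_one q2
  have qq : 4 * q * q = 1 := by linear_combination (2 * q + 1) * q2
  have h1 := h.1
  have h2 := h'.1
  have t0 : t ≠ 0 := by rintro rfl; simp at h1
  have t0' : t' ≠ 0 := by rintro rfl; simp at h2
  have a : ∀ x : K, x * x = 1 → G.B (e 0) ![q, x * (q * t), x * (q * (t - 1)), 0, 0, 0] := fun x hx => s.sgn' h.2.2 fun i => by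
    rw [hv012 hq]; fin_cases i <;> simp
    exacts [by linear_combination (q * t) ^ 2 * hx, by linear_combination (q * (t - 1)) ^ 2 * hx]
  have b : ∀ x : K, x * x = 1 → G.B (e 0) ![q, 0, 0, x * (q * t'), x * (q * (t' - 1)), 0] := fun x hx => s.sgn' h'.2.2 fun i => by
    fin_cases i <;> simp [hv, ← hq]
    exacts [by linear_combination (2⁻¹ * t') ^ 2 * hx, by linear_combination (2⁻¹ * (t' - 1)) ^ 2 * hx]
  have p3 := al_quarter G.two (s.al2 (a 1 (by simp)) (b 1 (by simp))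
    (by simp only [dot6]; simp; linear_combination (2 * q * q) * h1 + qq)
    (by simp only [dot6]; simp; linear_combination (2 * q * q) * h2 + qq)
    (fun c => by simpa [q0, t0] using congrFun c 1) (fun c => by simpa [q0, t0] using congrFun c 1))
    (by simp only [dot6]; simp; linear_combination (4 * q * q + 1) * qq)
  obtain ⟨l, c | c⟩ := sq' (G := G) (v := ![q, 0, 0, 1 * (q * t'), 1 * (q * (t' - 1)), 0])
    (v' := ![q, -1 * (q * t), -1 * (q * (t - 1)), 0, 0, 0]) (c := ![0, q * t, q * (t - 1), -(q * t'), -(q * (t' - 1)), 0])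
    (by convert (b 1 (by simp)).symm.trans (a 1 (by simp)) (ee' 0) using 1; ext i; fin_cases i <;> simp)
    (by convert (a (-1) (by simp)).symm.trans (b (-1) (by simp)) (ee' 0) using 1; ext i; fin_cases i <;> simp)
    (fun c => by simpa [q0, t0] using congrFun c 1)
    (by simp only [dot6]; simp; linear_combination (2 * q * q) * h1 + (2 * q * q) * h2 + 2 * q * q * p3)
    (by simp only [dot6]; simp; linear_combination -(2 * q * q) * h2 - q * q * p3)
    (by simp only [dot6]; simp; linear_combination -(2 * q * q) * h1 - q * q * p3)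
    (by simp only [dot6]; simp; linear_combination (2 * q * q) * h2 + qq)
    (by simp only [dot6]; simp; linear_combination (2 * q * q) * h1 + qq)
  · have c1 := congrFun c 1
    have c3 := congrFun c 3
    simp at c1 c3
    exact mul_ne_zero (mul_ne_zero (mul_ne_zero q0 t0) (mul_ne_zero q0 t0')) G.two
      (by linear_combination -(q * t') * c1 - (q * t) * c3)
  · have := congrFun c 0
    simp at this; exact one_ne_zero (α := K) (by linear_combination this - q2)

theorem Hs.star (s : G.St) {i j k l m : Fin 6} (n : [i, j, k, l, m].Nodup) (h : G.Hs i j k) (h' : G.Hs i l m) : False := by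
  obtain ⟨τ, rfl, rfl, rfl, rfl, rfl⟩ := ex5 n ![0, 1, 2, 3, 4] (by decide)
  obtain ⟨-, -, -, t, h⟩ := (rl_Hs s).2 h
  obtain ⟨-, -, -, t', h'⟩ := (rl_Hs s).2 h'
  exact h.star (rl_St.2 s) h'

theorem Hs.toY0 (s : G.St) (h : G.Hs 0 1 2) (h' : G.Hs 1 2 3) : G.Yr 4 5 := by
  obtain ⟨q, hq, q2⟩ := ex_half G.two
  have qq : 4 * q * q = 1 := by linear_combination (2 * q + 1) * q2
  have a := h.cyc s
  have b := h'.cyc s
  obtain ⟨-, -, -, t, h⟩ := h
  have k := (h.act s (G.X.mul_mem (G.X.mul_mem a b) (G.X.mul_mem b a))).2.2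
  obtain ⟨h1, -, h⟩ := h
  rw [show hv _ _ _ t = ![0, q * (t - 1), q * t, q, 0, 0] by
    ext i; fin_cases i <;> simp [hv, ← hq, swap_apply_def] <;> ring] at k
  rw [hv012 hq] at h
  have u : (![0, q * (t - 1), q * t, q, 0, 0] : W K) ⬝ᵥ ![0, q * (t - 1), q * t, q, 0, 0] = 1 := by
    simp only [dot6]; simp; linear_combination (2 * q * q) * h1 + qq
  have d : 2 * ((![0, q * (t - 1), q * t, q, 0, 0] : W K) ⬝ᵥ ![q, q * t, q * (t - 1), 0, 0, 0]) = 1 := by
    simp only [dot6]; simp; linear_combination (4 * q * q) * h1 + qq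
  refine s.sgn' (s.refl k h u) fun i => ?_
  rw [rf_unit u, d]; fin_cases i <;> simp [yv, ← hq] <;> ring

theorem Hs.toY (s : G.St) {i j k l : Fin 6} (n : [i, j, k, l].Nodup) (h : G.Hs i j k) (h' : G.Hs j k l) :
    ∃ a b, a ≠ b ∧ G.Yr a b := by
  obtain ⟨τ, rfl, rfl, rfl, rfl⟩ := ex4 n
  exact ⟨_, _, τ.injective.ne (by decide), (rl_Yr s).1 (((rl_Hs s).2 h).toY0 (rl_St.2 s) ((rl_Hs s).2 h'))⟩

end OG

end Cfsg.Agent.O6
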