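import Cfsg.Agent.O6.R4

/-! Bireflections `b(a, u)` with `u` of type `D₄`. -/

set_option autoImplicit false

namespace Cfsg.Agent.O6

open Matrix Equiv

variable {Γ K : Type*} [Group Γ] [Field K]

/-- vectors in the first coordinate plane -/
abbrev pv (c s : K) : W K := ![c, s, 0, 0, 0, 0]

theorem pv_eq (c s : K) : c • e 0 + s • e 1 = pv c s := by ext i; fin_cases i <;> simp [e]

theorem pv_dot (c s c' s' : K) : pv c s ⬝ᵥ pv c' s' = c * c' + s * s' := by simp [dot6]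

theorem sp_mul_left (ε : Fin 6 → K) (A : M6 K) (i j : Fin 6) : (sp 1 ε * A) i j = ε i * A i j := by
  simp only [mul_apply, sp]; rw [Finset.sum_eq_single i] <;> simp +contextual [eq_comm]

theorem sp_mul_right (σ : P6) (ε : Fin 6 → K) (A : M6 K) (i j : Fin 6) : (A * sp σ ε) i j = A i (σ j) * ε j := by
  simp [mul_apply, sp]

theorem Q45_mulVec (h : K) (u : W K) : Q45 h *ᵥ u =
    ![h * (u 0 + u 1), h * (u 0 - u 1), h * (u 2 + u 3), h * (u 2 - u 3), h * (u 4 + u 5), h * (u 4 - u 5)] := by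
  ext i; fin_cases i <;> simp [Q45, mulVec, dotProduct, Fin.sum_univ_six] <;> ring

theorem cube_mat {q r : K} (q2 : 2 * q = 1) (hr : r * r = 3 * q * q) {A : M6 K}
    (h : A = !![-q, r, 0, 0, 0, 0; -r, -q, 0, 0, 0, 0; 0, 0, -q, q, q, q;
      0, 0, -q, -q, -q, q; 0, 0, -q, q, -q, -q; 0, 0, -q, -q, q, -q]) : A * A + A + 1 = 0 := by
  subst h; ext i j
  rw [Matrix.add_apply, Matrix.add_apply, mul_apply, Fin.sum_univ_six]
  fin_cases i <;> fin_cases j <;> simp <;> grind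

namespace OG

variable {G : OG Γ K}

theorem St.perp (s : G.St) {c d : K} (h : c * c + d * d = 1) : G.B (pv c d) (pv (-d) c) := by
  obtain ⟨z, hz⟩ := s.dg 0 1
  refine ⟨z, hz.trans (Matrix.ext fun i j => ?_)⟩
  rw [rf2_apply (by rw [pv_dot, h]) (by rw [pv_dot]; linear_combination h) (by rw [pv_dot]; ring)]
  fin_cases i <;> fin_cases j <;> simp [O6.dg, sp, sg2] <;> first | linear_combination (2 : K) * h | ring

theorem St.plane (s : G.St) {c d c' d' : K} (h : c * c + d * d = 1) (h' : c' * c' + d' * d' = 1) (k : G.B (pv c d) (pv c' d')) :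
    c * c' + d * d' = 0 ∨ c * d' - d * c' = 0 := by
  have f4 := four.2 G.two
  rcases k.al (by rw [pv_dot, h]) (by rw [pv_dot, h']) with a | a | a
  · have a0 := congrFun a 0; have a1 := congrFun a 1
    simp at a0 a1; right; rw [a0, a1]; ring
  · have a0 := congrFun a 0; have a1 := congrFun a 1
    simp at a0 a1; right; rw [a0, a1]; ring
  rcases (k.trans (s.perp h') (by rw [pv_dot, h']; simp)).al (by rw [pv_dot, h]) (by rw [pv_dot]; linear_combination h') with b | b | b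
  · have a0 := congrFun b 0; have a1 := congrFun b 1
    simp at a0 a1; left; rw [← a0, a1]; ring
  · have a0 := congrFun b 0; have a1 := congrFun b 1
    simp at a0 a1; left; rw [a0, a1]; ring
  rw [pv_dot] at a b
  rcases al_sum G.two a b (by linear_combination 4 * (c' * c' + d' * d') * h + 4 * h') with x | x
  · left; simpa [f4] using x
  · right
    have : c * -d' + d * c' = 0 := by simpa [f4] using x
    linear_combination -this

theorem Yb.cases (s : G.St) (h : G.Yb 0 1) : G.Yr 0 1 ∨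
    (3 : K) ≠ 0 ∧ ∃ c d : K, 4 * c * c = 1 ∧ c * c + d * d = 1 ∧ G.B (pv c d) (yv 0 1) := by
  obtain ⟨q, hq, q2⟩ := ex_half G.two
  obtain ⟨c, d, h1, h⟩ := h
  rw [pv_eq] at h
  have u : (yv 0 1 : W K) ⬝ᵥ yv 0 1 = 1 := by rw [yv01 hq]; simp [dot6]; linear_combination (2 * q + 1) * q2
  have a : pv c d ⬝ᵥ pv c d = 1 := by rw [pv_dot, h1]
  have k0 : ∀ c d : K, c * c + d * d = 1 → G.B (pv c d) (yv 0 1) → d = 0 → G.Yr 0 1 := fun c d h1 h d0 => by
    have c0 : c ≠ 0 := by rintro rfl; simp [d0] at h1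
    rw [d0, ← pv_eq, zero_smul, add_zero, B, rf_smul c0] at h; exact h
  have k1 : ∀ c d : K, c * c + d * d = 1 → G.B (pv c d) (yv 0 1) → 4 * c * c = 1 → G.Yr 0 1 ∨
      (3 : K) ≠ 0 ∧ ∃ c d : K, 4 * c * c = 1 ∧ c * c + d * d = 1 ∧ G.B (pv c d) (yv 0 1) := fun c d h1 h h4 => by
    by_cases p : (3 : K) = 0
    · exact .inl (k0 c d h1 h (mul_self_eq_zero.1 (by linear_combination h1 - h4 + c * c * p)))
    · exact .inr ⟨p, c, d, h4, h1, h⟩
  have h' : G.B (pv (-d) c) (yv 0 1) := (s.perp h1).symm.trans h (by simp [a])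
  obtain ⟨z, hz⟩ := s.dg 0 2
  obtain ⟨w, hw⟩ := id h
  have k := ((s 0 2).act hw).act hz
  have e1 : O6.dg 0 2 *ᵥ (rf (pv c d) * rf (yv 0 1)) *ᵥ e 0 = pv (2 * c * c - 1) (-(2 * c * d)) := by
    ext i; rw [dg_mulVec, mulVec_e, rf2_apply a u (by rw [yv01 hq]; simp [dot6]), yv01 hq]
    fin_cases i <;> simp [sg2] <;> ring
  have e2 : O6.dg 0 2 *ᵥ (rf (pv c d) * rf (yv 0 1)) *ᵥ e 2 = -yv 0 1 := by
    ext i; rw [dg_mulVec, mulVec_e, rf2_apply a u (by rw [yv01 hq]; simp [dot6]), yv01 hq]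
    fin_cases i <;> simp [sg2] <;> first | linear_combination (q + 1) * q2 | linear_combination q * q2
  rw [e1, e2, B, rf_neg] at k
  rcases s.plane h1 (by linear_combination (4 * c * c) * h1) (h.trans (B.symm k) (by simp [u])) with x | x
  · rcases mul_eq_zero.1 (show c * (4 * d * d - 1) = 0 by linear_combination -x + 2 * c * h1) with y | y
    · exact .inl (k0 (-d) c (by linear_combination h1) h' y)
    · exact k1 (-d) c (by linear_combination h1) h' (by linear_combination y)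
  · rcases mul_eq_zero.1 (show d * (4 * c * c - 1) = 0 by linear_combination -x) with y | y
    · exact .inl (k0 c d h1 h y)
    · exact k1 c d h1 h (by linear_combination y)

theorem Yb.of_b (s : G.St) (h : G.Yb 0 1) {σ : P6} (hσ : σ ∈ G.X) (h0 : σ 0 = 1) (h1 : σ 1 = 0) (sg : Perm.sign σ = 1) :
    G.Yr 0 1 := by
  refine (h.cases s).resolve_right fun ⟨p, c, d, h4, h1', h⟩ => ?_
  obtain ⟨x, hx⟩ := s.exM hσ sg_one (by simp [sg])
  have k := h.act hx
  rw [sp_yv, h0, h1, ← pv_eq, mulVec_add, mulVec_smul, mulVec_smul, sp_e, sp_e, h0, h1, one_smul, one_smul, add_comm, pv_eq,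
    show (yv 1 0 : W K) = yv 0 1 from funext fun i => by simp [yv, or_comm]] at k
  obtain ⟨q, hq, q2⟩ := ex_half G.two
  have u : (yv 0 1 : W K) ⬝ᵥ yv 0 1 = 1 := by rw [yv01 hq]; simp [dot6]; linear_combination (2 * q + 1) * q2
  rcases s.plane h1' (by linear_combination h1') (h.trans k.symm (by simp [u])) with x | x
  · exact p (by linear_combination 4 * (c * d + d * c) * x - 4 * (4 * c * c) * h1' + (4 * c * c - 3) * h4)
  · exact G.two (by linear_combination -4 * x - 4 * h1' + 2 * h4)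

theorem Yb.of_30 (s : G.St) (h : G.Yb 0 1) (hσ : swap 3 4 * swap 4 5 ∈ G.X) : G.Yr 0 1 := by
  refine (h.cases s).resolve_right fun ⟨p, c, d, h4, h1, w, hw⟩ => ?_
  obtain ⟨x, hx⟩ := s.exM hσ sg_one (by simp)
  obtain ⟨z, hz⟩ := s.dg 0 2
  obtain ⟨q, hq, q2⟩ := ex_half G.two
  have u : (yv 0 1 : W K) ⬝ᵥ yv 0 1 = 1 := by rw [yv01 hq]; simp [dot6]; linear_combination (2 * q + 1) * q2
  have e1 : G.φ (z * w * x) = !![-q, 2 * c * d, 0, 0, 0, 0; -(2 * c * d), -q, 0, 0, 0, 0; 0, 0, -q, q, q, q;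
      0, 0, -q, -q, -q, q; 0, 0, -q, q, -q, -q; 0, 0, -q, -q, q, -q] := by
    ext i j
    rw [map_mul, map_mul, hz, hw, hx, sp_mul_right, O6.dg, sp_mul_left,
      rf2_apply (by rw [pv_dot, h1]) u (by rw [yv01 hq]; simp [dot6]), yv01 hq]
    fin_cases i <;> fin_cases j <;> simp [sg2, swap_apply_def] <;> grind
  have e2 := cube_mat q2 (by grind) e1
  rw [G.h3 _ e2, map_one] at e2
  have := congrFun (congrFun e2 0) 0
  simp at this; exact p (by linear_combination this)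

theorem Yb.of_3 (s : G.St) {a b c d f : Fin 6} (n : [a, b, c, d, f].Nodup) (h : G.Yb a b) (hσ : swap c d * swap d f ∈ G.X) :
    G.Yr a b := by
  obtain ⟨τ, rfl, rfl, rfl, rfl, rfl⟩ : ∃ τ : P6, τ 0 = a ∧ τ 1 = b ∧ τ 3 = c ∧ τ 4 = d ∧ τ 5 = f :=
    ex5 n ![0, 1, 3, 4, 5] (by decide)
  exact (rl_Yr s).1 ((rl_Yb.2 h).of_30 (rl_St.2 s) (rl_X.2 (by simpa only [← conj_mul, ← swap_apply_apply] using hσ)))

theorem Yb.act (s : G.St) {σ : P6} (hσ : σ ∈ G.X) {a b : Fin 6} (ab : a ≠ b) (h : G.Yb a b) : G.Yb (σ a) (σ b) := by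
  obtain ⟨c, d, h1, h⟩ := h
  have sq : ((Perm.sign σ : ℤ) : K) = 1 ∨ ((Perm.sign σ : ℤ) : K) = -1 := by
    rcases Int.units_eq_one_or (Perm.sign σ) with c | c <;> simp [c]
  have sq' := mul_self_eq_one_iff.2 sq
  obtain ⟨x, hx⟩ := s.exM hσ (ε := fun i => if i = a then ((Perm.sign σ : ℤ) : K) else 1)
    (fun i => by by_cases c : i = a <;> simp [c, sq]) (by simpa using sq')
  refine ⟨c * ((Perm.sign σ : ℤ) : K), d, by linear_combination h1 + c * c * sq', ?_⟩
  convert h.act hx using 1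
  · simp [mulVec_add, mulVec_smul, sp_e, ab.symm, smul_smul]
  · ext i; obtain ⟨i, rfl⟩ := σ.surjective i
    rw [sp_mulVec]; by_cases k : i = a <;> simp [yv, k]

theorem Yb.fuse (h : G.Yb 0 1) {z : Γ} (hz : G.φ z = dg 2 3) : ∃ w, G.Mo (w * z * w⁻¹) (swap 2 3 * swap 4 5) := by
  obtain ⟨q, hq, q2⟩ := ex_half G.two
  obtain ⟨c, d, h1, w, hw⟩ := h
  rw [pv_eq] at hw
  have u : (yv 0 1 : W K) ⬝ᵥ yv 0 1 = 1 := by rw [yv01 hq]; simp [dot6]; linear_combination (2 * q + 1) * q2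
  refine ⟨w, ![1, 1, 1, 1, -1, -1], fun i => by fin_cases i <;> simp, ?_⟩
  have k : ∀ j, G.φ w *ᵥ e j = fun i => (if i = j then 1 else 0) - 2 * (pv c d i * pv c d j) - 2 * (yv 0 1 i * yv 0 1 j) :=
    fun j => funext fun i => by rw [hw, mulVec_e, rf2_apply (by rw [pv_dot, h1]) u (by rw [yv01 hq]; simp [dot6])]
  rw [φ_conj, hz, ← rf_e2, ← (G.ot w).rf2]
  ext i j
  rw [rf2_apply (by rw [(G.ot w).dot, ee]) (by rw [(G.ot w).dot, ee]) (by rw [(G.ot w).dot]; simp [e]), k, k, yv01 hq]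
  fin_cases i <;> fin_cases j <;> simp [sp, swap_apply_def] <;> grind

/-- a root of type `D₄` is a short root for the partner frame -/
theorem Yr.pt_X (s : G.St) (h : G.Yr 0 1) {k l : Fin 6} (hk : k = 2 ∨ k = 3) (hl : l = 4 ∨ l = 5) :
    swap 0 1 * swap k l ∈ G.pt.X := by
  obtain ⟨q, hq, q2⟩ := ex_half G.two
  have hh := G.hh
  have : G.pt.B (G.h • (e 0 + e 1)) (G.h • (e k + e l)) := by
    rw [pt, cj_B, show Q45 G.h *ᵥ G.h • (e 0 + e 1) = e 0 by
      rw [Q45_mulVec]; ext i; fin_cases i <;> simp [e_apply]; linear_combination hh]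
    refine s.sgn' h fun i => ?_
    rw [yv01 hq, Q45_mulVec]
    rcases hk with rfl | rfl <;> rcases hl with rfl | rfl <;> fin_cases i <;> simp [e_apply] <;> grind
  obtain ⟨x, hx⟩ := this
  refine ⟨x, fun i => if i = 0 ∨ i = 1 ∨ i = k ∨ i = l then -1 else 1, fun i => by dsimp only; split_ifs <;> simp,
    hx.trans (Matrix.ext fun i j => ?_)⟩
  rw [rf2_apply]
  · rcases hk with rfl | rfl <;> rcases hl with rfl | rfl <;> fin_cases i <;> fin_cases j <;>
      simp [sp, e_apply, swap_apply_def] <;> first | linear_combination -hh | linear_combination hh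
  all_goals rcases hk with rfl | rfl <;> rcases hl with rfl | rfl <;> simp [dot6, e_apply] <;> linear_combination hh

end OG

end Cfsg.Agent.O6
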