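import Cfsg.Agent.O6.P3

/-! The partner frame; frame groups inside `M`. -/

set_option autoImplicit false

namespace Cfsg.Agent.O6

open Matrix Equiv

variable {Γ K : Type*} [Group Γ] [Field K]

theorem third {ε : Fin 6 → K} (h : Sg ε) (p : ∏ i, ε i = 1) : ε 0 * ε 1 * (ε 2 * ε 3) = ε 4 * ε 5 := by
  rw [Fin.prod_univ_six] at p
  linear_combination (ε 4 * ε 5) * p - (ε 0 * ε 1 * ε 2 * ε 3 * ε 5 * ε 5) * h.sq 4 - (ε 0 * ε 1 * ε 2 * ε 3) * h.sq 5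

theorem Sg.eq {ε : Fin 6 → K} (h : Sg ε) {i j : Fin 6} (e : ε i * ε j = 1) : ε i = ε j := by
  linear_combination ε j * e - ε i * h.sq j

theorem q_rf {h : K} (hh : 2 * h * h = 1) (c : Fin 6) : ∃ η, Sg η ∧ Q45 h * rf (e c) * Q45 h = sp (vb c) η := by
  refine ⟨fun i => if vb c i ≠ i ∧ (c = 0 ∨ c = 2 ∨ c = 4) then -1 else 1, fun i => by dsimp only; split_ifs <;> simp,
    ext_iff_mulVec.2 fun u => ?_⟩
  rw [← mulVec_mulVec, ← mulVec_mulVec, Q45_mulVec, Q45_mulVec, rf_e]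
  ext i; simp only [sp_mulVec']
  fin_cases c <;> fin_cases i <;> simp [vb, swap_apply_def] <;> grind

theorem q_v4 {h : K} (hh : 2 * h * h = 1) {σ : P6} (v : OG.V4b σ) {ε : Fin 6 → K} (h0 : ε 0 = ε 1) (h1 : ε 2 = ε 3) (h2 : ε 4 = ε 5) :
    Q45 h * sp σ ε * Q45 h = sp 1 fun i => if σ i ≠ i ∧ (i = 1 ∨ i = 3 ∨ i = 5) then -ε i else ε i := by
  refine ext_iff_mulVec.2 fun u => ?_
  rw [← mulVec_mulVec, ← mulVec_mulVec, Q45_mulVec, Q45_mulVec]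
  ext i; simp only [sp_mulVec']
  rcases v with rfl | rfl | rfl | rfl <;> fin_cases i <;> simp [swap_apply_def] <;> grind

theorem q_sw {h : K} (hh : 2 * h * h = 1) {a b : Fin 6} {β : P6} (r : Rep a b β) :
    Q45 h * sp β (fun i => if i = b then -1 else 1) * (Q45 h * sp β fun i => if i = b then -1 else 1) =
      sp (swap a b) (fun i => if i = b then -1 else 1) ∧
    Q45 h * sp (swap a b * β) (fun _ => 1) * (Q45 h * sp (swap a b * β) fun _ => 1) =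
      sp (swap a b) (fun i => if i = a then -1 else 1) := by
  refine ⟨ext_iff_mulVec.2 fun u => ?_, ext_iff_mulVec.2 fun u => ?_⟩ <;>
  · rw [← mulVec_mulVec, ← mulVec_mulVec, ← mulVec_mulVec, Q45_mulVec, Q45_mulVec]
    ext i; simp only [sp_mulVec']
    rcases r with ⟨rfl, rfl, rfl⟩ | ⟨rfl, rfl, rfl⟩ | ⟨rfl, rfl, rfl⟩ | ⟨rfl, rfl, rfl⟩ <;> fin_cases i <;>
      simp [swap_apply_def] <;> grind

namespace OG

variable {G G' G'' : OG Γ K}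

theorem pt_φ (x : Γ) : G.pt.φ x = Q45 G.h * G.φ x * Q45 G.h := by rw [pt, cj_φ, Q45_tr]

theorem pt_dg_Mo {w : Γ} {c d : Fin 6} (h : G.φ w = dg c d) : G.pt.Mo w (vb c * vb d) := by
  obtain ⟨ε, hε, e1⟩ := q_rf G.hh c
  obtain ⟨η, hη, e2⟩ := q_rf G.hh d
  refine ⟨_, hε.mul hη (vb d) id, ?_⟩
  rw [pt_φ, h, ← rf_e2]
  calc _ = Q45 G.h * rf (e c) * (Q45 G.h * Q45 G.h) * rf (e d) * Q45 G.h := by simp [Q45_sq G.hh, mul_assoc]
    _ = Q45 G.h * rf (e c) * Q45 G.h * (Q45 G.h * rf (e d) * Q45 G.h) := by simp only [mul_assoc]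
    _ = _ := by rw [e1, e2, sp_mul]; rfl

theorem Mo.m_mul {x : Γ} {σ : P6} (h : G.Mo (G.m * x) σ) : G.Mo x σ := by
  simpa [← mul_assoc, G.m_sq] using Mo.m.mul h

theorem E_pt {x : Γ} (h : x ∈ G.E) : ∃ σ, V4b σ ∧ G.pt.Mo x σ := by
  rcases E_cases h with rfl | rfl | ⟨a, b, -, c | c⟩
  exacts [⟨1, .inl rfl, Mo.one⟩, ⟨1, .inl rfl, Mo.m (G := G.pt)⟩, ⟨_, vb_v4 a b, pt_dg_Mo c⟩,
    ⟨_, vb_v4 a b, Mo.m_mul (G := G.pt) (pt_dg_Mo c)⟩]

theorem ptE_Mo {x : Γ} (h : x ∈ G.pt.E) : ∃ σ, V4b σ ∧ G.Mo x σ := by simpa only [pt_pt] using E_pt h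

theorem ptE_le : G.pt.E ≤ G.M := fun _ h => (ptE_Mo h).imp fun _ h => h.2

theorem E_le_pt : G.E ≤ G.pt.M := fun _ h => (E_pt h).imp fun _ h => h.2

theorem St.ex_v4 (s : G.pt.St) {σ : P6} (v : V4b σ) : ∃ x ∈ G.pt.E, G.Mo x σ := by
  obtain ⟨c, d, rfl⟩ := v4_vb σ v
  obtain ⟨z, hz⟩ := s.dg c d
  exact ⟨z, mo_dg hz, by simpa only [pt_pt] using pt_dg_Mo hz⟩

theorem St.vx (s : G.pt.St) : VX G.X 1 := fun σ v => by
  obtain ⟨x, -, h⟩ := s.ex_v4 v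
  exact ⟨x, by simpa using h⟩

theorem St.pt (s : G.St) (v : VX G.X 1) : G.pt.St := fun c d => by
  obtain ⟨ε, hε, e1⟩ := q_rf G.hh c
  obtain ⟨η, hη, e2⟩ := q_rf G.hh d
  have q := Q45_sq G.hh
  have k : Q45 G.h * (rf (e c) * rf (e d)) * Q45 G.h = sp (vb c * vb d) fun i => ε (vb d i) * η i := by
    calc _ = Q45 G.h * rf (e c) * (Q45 G.h * Q45 G.h) * rf (e d) * Q45 G.h := by simp [q, mul_assoc]
      _ = Q45 G.h * rf (e c) * Q45 G.h * (Q45 G.h * rf (e d) * Q45 G.h) := by simp only [mul_assoc]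
      _ = _ := by rw [e1, e2, sp_mul]
  obtain ⟨x, hx⟩ := s.exM (by simpa using v _ (vb_v4 c d)) (hε.mul hη (vb d) id) (by
    have := congrArg Matrix.det k
    rw [det_mul, det_mul, Q45_det G.hh, rf_e2, O6.dg, sp_det, sp_det] at this
    refine this.symm.trans ?_
    simp only [sg2, Finset.prod_mul_distrib]; simp)
  refine ⟨x, ?_⟩
  rw [pt_φ, hx]; simp only [id]; rw [← k]
  calc _ = (Q45 G.h * Q45 G.h) * (rf (e c) * rf (e d)) * (Q45 G.h * Q45 G.h) := by simp only [mul_assoc]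
    _ = _ := by simp [q]

theorem comm_eps {x y : Γ} {τ : P6} {ε : Fin 6 → K} (hx : G.φ x = sp 1 ε) (hy : G.Mo y τ) (c : x * y = y * x) (i : Fin 6) :
    ε (τ i) = ε i := by
  obtain ⟨η, hη, hy⟩ := hy
  have := congrArg G.φ c
  rw [map_mul, map_mul, hx, hy, sp_mul, sp_mul] at this
  have := congrFun (congrFun this (τ i)) i
  simp only [sp, one_mul, mul_one, if_true, Perm.one_apply] at this
  exact mul_right_cancel₀ (hη.ne i) (this.trans (mul_comm _ _))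

theorem sq_eps {x : Γ} {σ : P6} {ε : Fin 6 → K} (h : Sg ε) (hx : G.φ x = sp σ ε) (c : x * x = 1) (i : Fin 6) : ε (σ i) = ε i := by
  have := congrArg G.φ c
  rw [map_mul, hx, sp_mul, map_one, ← sp_one] at this
  exact h.eq (congrFun (sp_inj (h.mul h σ id) this).2 i)

theorem mem_ptE {x : Γ} {σ : P6} {ε : Fin 6 → K} (h : Sg ε) (hx : G.φ x = sp σ ε) (v : V4b σ) (h0 : ε 0 = ε 1) (h1 : ε 2 = ε 3)
    (h2 : ε 4 = ε 5) : x ∈ G.pt.E :=
  ⟨fun i => if σ i ≠ i ∧ (i = 1 ∨ i = 3 ∨ i = 5) then -ε i else ε i, fun i => by dsimp only; split_ifs; exacts [h.neg i, h i], by rw [pt_φ, hx, q_v4 G.hh v h0 h1 h2]⟩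

theorem Mo.nf {x : Γ} {σ : P6} (h : G.Mo x σ) (v : V4b σ) (n : σ ≠ 1) (c : x * x = 1) : x ∈ G.pt.E := by
  obtain ⟨ε, hε, hx⟩ := h
  have k := sq_eps hε hx c
  have p := third hε (by simpa [v4_sign σ v] using sign_of hx)
  rcases id v with rfl | rfl | rfl | rfl
  · exact absurd rfl n
  · have a : ε 1 = ε 0 := k 0
    have b : ε 3 = ε 2 := k 2
    exact mem_ptE hε hx v a.symm b.symm (hε.eq (by rw [← p, a, b, hε.sq, hε.sq, one_mul]))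
  · have a : ε 1 = ε 0 := k 0
    have b : ε 5 = ε 4 := k 4
    exact mem_ptE hε hx v a.symm (hε.eq (by rw [a, b, hε.sq, hε.sq, one_mul] at p; exact p)) b.symm
  · have a : ε 3 = ε 2 := k 2
    have b : ε 5 = ε 4 := k 4
    exact mem_ptE hε hx v (hε.eq (by rw [a, b, hε.sq, hε.sq, mul_one] at p; exact p)) a.symm b.symm

variable (G G') in
/-- change of orthonormal basis -/
def Rel : Prop := ∃ Q hQ, G' = G.cj Q hQ

theorem Rel.refl : Rel G G := ⟨1, by simp [Ot], (cj_one rfl).symm⟩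

theorem Rel.symm (h : Rel G G') : Rel G' G := by
  obtain ⟨Q, hQ, rfl⟩ := h
  exact ⟨Qᵀ, hQ.tr, by rw [cj_mul]; exact (cj_one hQ.right).symm⟩

theorem Rel.trans (h : Rel G G') (h' : Rel G' G'') : Rel G G'' := by
  obtain ⟨Q, hQ, rfl⟩ := h
  obtain ⟨R, hR, rfl⟩ := h'
  exact ⟨_, _, cj_mul⟩

theorem rel_pt : Rel G G.pt := ⟨_, _, rfl⟩
theorem rel_rl (τ : P6) : Rel G (G.rl τ) := ⟨_, _, rfl⟩
theorem rel_cg (g : Γ) : Rel G (G.cg g) := ⟨_, _, rfl⟩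

theorem Rel.m (r : Rel G G') : G'.m = G.m := by obtain ⟨Q, hQ, rfl⟩ := r; rfl

theorem Rel.Bi (r : Rel G G') {x : Γ} : G'.Bi x ↔ G.Bi x := by obtain ⟨Q, hQ, rfl⟩ := r; exact cj_Bi

theorem Rel.of_le (r : Rel G G') (s : G.St) (h : G.E ≤ G'.E) : G'.St ∧ G'.E = G.E ∧ G'.M = G.M := by
  obtain ⟨Q, hQ, rfl⟩ := r
  obtain ⟨σ, ε, hε, rfl⟩ := s.E_le h
  exact ⟨(sp_St hε).2 s, sp_E hε, sp_M hε⟩

theorem Rel.cl0 (r : Rel G G') (s : G.St) (s' : G'.St) (h : G'.E ≤ G.M) {t : Γ} (ht : t ∈ G'.E)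
    (mt : G.Mo t (swap 0 1 * swap 2 3)) : G'.E ≤ G.pt.E := by
  have k : ∀ x ∈ G'.E, ∀ σ, G.Mo x σ → _ := fun x hx σ m =>
    comm_t σ (m.sq (E_sq hx)) (s.even ⟨x, m⟩ (m.sq (E_sq hx))) (m.comm mt (E_comm hx ht))
  by_cases c : ∃ y ∈ G'.E, G.Mo y (swap 0 2 * swap 1 3)
  · exfalso
    obtain ⟨y, hy, my⟩ := c
    obtain ⟨Q, hQ, rfl⟩ := r
    have k2 : ∀ x ∈ (G.cj Q hQ).E, ∃ c : K, (c = 1 ∨ c = -1) ∧ ∀ i, (i = 4 ∨ i = 5) →
        (G.cj Q hQ).φ x *ᵥ (Qᵀ *ᵥ e i) = c • (Qᵀ *ᵥ e i) := fun x hx => by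
      obtain ⟨σ, ε, hε, e1⟩ := h hx
      have m : G.Mo x σ := ⟨ε, hε, e1⟩
      have p := third hε (by simpa [s.even ⟨x, m⟩ (m.sq (E_sq hx))] using sign_of e1)
      have q := sq_eps hε e1 (E_sq hx)
      have : σ 4 = 4 ∧ σ 5 = 5 ∧ ε 5 = ε 4 := by
        rcases (k x hx σ m).2 (m.comm my (E_comm hx hy)) with rfl | ⟨a, b, ⟨c, d⟩ | ⟨c, d⟩ | ⟨c, d⟩⟩
        · have a : ε 1 = ε 0 := comm_eps e1 mt (E_comm hx ht) 0
          have b : ε 3 = ε 2 := comm_eps e1 mt (E_comm hx ht) 2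
          exact ⟨rfl, rfl, (hε.eq (by rw [← p, a, b, hε.sq, hε.sq, one_mul])).symm⟩
        · exact ⟨a, b, (hε.eq (by rw [← p, ← c, ← d, q, q, hε.sq, hε.sq, one_mul])).symm⟩
        · exact ⟨a, b, (hε.eq (by rw [← p, ← c, ← d, q, q, mul_mul_mul_comm, hε.sq, hε.sq, one_mul])).symm⟩
        · exact ⟨a, b, (hε.eq (by rw [← p, ← c, ← d, q, q, mul_comm (ε 1) (ε 0), mul_mul_mul_comm, hε.sq, hε.sq, one_mul])).symm⟩
      refine ⟨ε 4, hε 4, fun i hi => ?_⟩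
      rw [cj_φ, mulVec_mulVec, mul_assoc, hQ.right, mul_one, ← mulVec_mulVec, e1, sp_e, mulVec_smul]
      rcases hi with rfl | rfl <;> simp [this]
    have k3 : ∀ i, (i = 4 ∨ i = 5) → ∃ k, Qᵀ *ᵥ e i = e k ∨ Qᵀ *ᵥ e i = -e k := fun i hi => by
      obtain ⟨k, -, hk⟩ := eig_e G.two (v := Qᵀ *ᵥ e i) (by rw [hQ.tr.dot, ee]) (fun _ => True) (by simp) (by decide)
        fun a c _ _ _ => by
          obtain ⟨z, hz⟩ := s'.dg a c
          obtain ⟨d, rfl | rfl, hd⟩ := k2 z (mo_dg hz) <;> simp [← hz, hd i hi]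
      exact ⟨k, hk⟩
    obtain ⟨a, ha⟩ := k3 4 (.inl rfl)
    obtain ⟨b, hb⟩ := k3 5 (.inr rfl)
    have ab : b ≠ a := by
      rintro rfl
      have := hQ.tr.dot (e 4) (e 5)
      rcases ha with ha | ha <;> rcases hb with hb | hb <;> rw [ha, hb] at this <;> simp [e_self, e_apply] at this
    obtain ⟨c, ca, cb⟩ := (by decide : ∀ a b : Fin 6, ∃ c, c ≠ a ∧ c ≠ b) a b
    obtain ⟨z, hz⟩ := s'.dg a c
    obtain ⟨d, -, hd⟩ := k2 z (mo_dg hz)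
    have d1 := congrFun (hd 4 (.inl rfl)) a
    have d2 := congrFun (hd 5 (.inr rfl)) b
    rw [hz, dg_mulVec] at d1 d2
    refine G.two ?_
    rcases ha with ha | ha <;> rcases hb with hb | hb <;> rw [ha] at d1 <;> rw [hb] at d2 <;>
      simp [sg2, e_self, ab, ca.symm, cb.symm] at d1 d2 <;> grind
  · intro x hx
    obtain ⟨σ, m⟩ := h hx
    rcases (k x hx σ m).1 with v | rfl | v
    · by_cases n : σ = 1
      · subst n
        obtain ⟨ε, hε, e1⟩ := m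
        have a : ε 1 = ε 0 := comm_eps e1 mt (E_comm hx ht) 0
        have b : ε 3 = ε 2 := comm_eps e1 mt (E_comm hx ht) 2
        exact mem_ptE hε e1 v a.symm b.symm
          (hε.eq (by rw [← third hε (by simpa using sign_of e1), a, b, hε.sq, hε.sq, one_mul]))
      · exact m.nf v n (E_sq hx)
    · exact absurd ⟨x, hx, m⟩ c
    · exact absurd ⟨x * t, G'.E.mul_mem hx ht, v ▸ m.mul mt⟩ c

theorem Rel.cl (r : Rel G G') (s : G.St) (s' : G'.St) (h : G'.E ≤ G.M) : G'.E ≤ G.E ∨ ∃ τ, G'.E ≤ (G.rl τ).pt.E := by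
  by_cases c : G'.E ≤ G.E
  · exact .inl c
  obtain ⟨t, ht, n⟩ := SetLike.not_le_iff_exists.1 c
  obtain ⟨σ, m⟩ := h ht
  obtain ⟨τ, rfl⟩ := (m.inv_cases s (E_sq ht)).resolve_left fun e => n (mem_E.2 (e ▸ m))
  exact .inr ⟨τ, ((rel_rl τ).symm.trans r).cl0 (rl_St.2 s) s' (by rwa [rl_M]) ht (rl_Mo.2 m)⟩

theorem St.sw (s : G.St) (v : VX G.X 1) {y : Γ} {σ ν β : P6} {ε : Fin 6 → K} {a b : Fin 6} (hε : Sg ε)
    (hy : G.φ y = Q45 G.h * sp σ ε) (hν : V4b ν) (r : Rep a b β) (e : σ * ν = β ∨ σ * ν = swap a b * β) : False := by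
  have ab : a ≠ b := by rcases r with ⟨rfl, rfl, -⟩ | ⟨rfl, rfl, -⟩ | ⟨rfl, rfl, -⟩ | ⟨rfl, rfl, -⟩ <;> decide
  have sb : Perm.sign β = 1 := by rcases r with ⟨-, -, rfl⟩ | ⟨-, -, rfl⟩ | ⟨-, -, rfl⟩ | ⟨-, -, rfl⟩ <;> simp
  have sd : ∀ b : Fin 6, Sg fun i => if i = b then (-1 : K) else 1 := fun b i => by by_cases c : i = b <;> simp [c]
  have d := G.det y
  rw [hy, det_mul, Q45_det G.hh, sp_det] at d
  have k : ∀ η, Sg η → ((Perm.sign (σ * ν) : ℤ) : K) * ∏ i, η i = -1 → ∃ x, G.φ x = Q45 G.h * sp (σ * ν) η := fun η hη p => by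
    have sq : ((Perm.sign σ : ℤ) : K) * ((Perm.sign σ : ℤ) : K) = 1 := by
      rcases Int.units_eq_one_or (Perm.sign σ) with c | c <;> simp [c]
    rw [map_mul, v4_sign ν hν, mul_one] at p
    obtain ⟨n, hn⟩ := s.exM (by simpa using v ν hν) (hε.mul hη ν id) (by
      rw [Finset.prod_mul_distrib, Equiv.prod_comp ν ε, v4_sign ν hν]; simp only [id]; push_cast
      linear_combination (-(∏ i, ε i) * ∏ i, η i) * sq - (((Perm.sign σ : ℤ) : K) * ∏ i, η i) * d - p)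
    exact ⟨y * n, by rw [map_mul, hy, hn, mul_assoc, sp_mul]; simp [← mul_assoc, hε.sq]⟩
  have : swap a b ∈ G.X := by
    rcases e with e | e <;> rw [e] at k
    · obtain ⟨x, hx⟩ := k _ (sd b) (by simp [sb])
      exact ⟨x * x, _, sd b, by rw [map_mul, hx, (q_sw G.hh r).1]⟩
    · obtain ⟨x, hx⟩ := k _ sg_one (by simp [sb, ab])
      exact ⟨x * x, _, sd a, by rw [map_mul, hx, (q_sw G.hh r).2]⟩
  simpa [ab] using s.even this (swap_mul_self a b)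

end OG

end Cfsg.Agent.O6
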