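import Cfsg.Agent.O6.R6
import Cfsg.Agent.MH.Grp

/-! `E` is weakly closed and `M` controls its fusion. -/

set_option autoImplicit false

namespace Cfsg.Agent.O6

open Matrix Equiv Subgroup

variable {Γ K : Type*} [Group Γ] [Field K]

theorem step [Finite Γ] {S T : Subgroup Γ} (hS : IsPGroup 2 S) (h : T ≤ S) (n : ¬ S ≤ T) :
    ∃ y ∈ S, y ∉ T ∧ y * y ∈ T ∧ ∀ x ∈ T, y * x * y⁻¹ ∈ T := by
  classical
  have hn : Group.IsNilpotent S := hS.isNilpotent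
  obtain ⟨y, hy, hy'⟩ := SetLike.exists_of_lt (Group.normalizerCondition_of_isNilpotent (T.subgroupOf S)
    (lt_top_iff_ne_top.2 fun e => n (subgroupOf_eq_top.1 e)))
  have ex : ∃ k, (y : Γ) ^ 2 ^ k ∈ T := by
    obtain ⟨k, hk⟩ := hS y
    exact ⟨k, by rw [← coe_pow, hk]; exact T.one_mem⟩
  obtain ⟨k, hk⟩ := Nat.exists_eq_succ_of_ne_zero (n := Nat.find ex) fun e => hy' (by
    have := Nat.find_spec ex; rw [e] at this; simpa [mem_subgroupOf] using this)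
  refine ⟨y ^ 2 ^ k, S.pow_mem y.2 _, Nat.find_min ex (by omega), ?_, fun x hx => ?_⟩
  · have := Nat.find_spec ex
    rwa [hk, pow_succ, pow_mul, pow_two] at this
  · exact (pow_mem hy (2 ^ k) ⟨x, h hx⟩).1 hx

theorem conj_in [Finite Γ] {H P Q : Subgroup Γ} (hP : IsPGroup 2 P) (hQ : IsPGroup 2 Q) (h1 : P ≤ H) (h2 : Q ≤ H) :
    ∃ R : Subgroup Γ, IsPGroup 2 R ∧ P ≤ R ∧ ∃ n ∈ H, ∀ x ∈ Q, n * x * n⁻¹ ∈ R := by
  obtain ⟨R, hR⟩ := (hP.comap_subtype (K := H)).exists_le_sylow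
  obtain ⟨n, hn⟩ := MH.exists_conj_le_sylow Nat.prime_two R (hQ.comap_subtype (K := H))
  exact ⟨(R : Subgroup H).map H.subtype, R.isPGroup'.map _, fun x hx => ⟨⟨x, h1 hx⟩, hR hx, rfl⟩, n, n.2,
    fun x hx => ⟨_, hn ⟨x, h2 hx⟩ hx, rfl⟩⟩

namespace OG

variable {G G' : OG Γ K}

theorem Pr.dg {σ : P6} {a b c d : Fin 6} (h : Pr σ a b c d) : (dg (σ a) (σ b) : M6 K) = dg c d := by
  rcases h with ⟨rfl, rfl⟩ | ⟨rfl, rfl⟩
  exacts [rfl, dg_comm _ _]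

theorem pr_of_dg {σ : P6} {a b c d : Fin 6} (two : (2 : K) ≠ 0) (ab : a ≠ b) (h : (dg (σ a) (σ b) : M6 K) = dg c d) :
    Pr σ a b c d := dg_inj two (σ.injective.ne ab) h

theorem pt_dg {z : Γ} {a : Fin 6} (h : G.φ z = dg a (pi3 a)) : G.pt.φ z = dg a (pi3 a) := by
  rw [pt_φ, h, O6.dg, q_v4 G.hh (.inl rfl)]
  · simp
  all_goals fin_cases a <;> simp [sg2, pi3, swap_apply_def]

theorem pt_dg' {z : Γ} {a : Fin 6} (h : G.pt.φ z = dg a (pi3 a)) : G.φ z = dg a (pi3 a) := by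
  simpa only [pt_pt] using pt_dg h

theorem rl_cg_E {τ : P6} {g : Γ} : ((G.rl τ).cg g).E = (G.cg g).E := by ext x; rw [cg_E, cg_E, rl_E]

theorem mem_cg {g x : Γ} (h : x ∈ G.E) : g * x * g⁻¹ ∈ (G.cg g).E := cg_E.2 (by simpa [mul_assoc] using h)

theorem St.mem_M' (s : G.St) {g : Γ} (h : (G.cg g).E ≤ G.E) : g ∈ G.M :=
  G.M.inv_mem_iff.1 (s.mem_M fun x hx => by simpa using h (mem_cg hx))

theorem St.swp (s : G.St) {y : Γ} {k : ℕ} (hk : y ^ 2 ^ k = 1) (h : (G.cg y).E ≤ G.pt.E) (h2 : y * y ∈ G.M) : False := by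
  obtain ⟨s', e1, -⟩ := ((rel_cg y).symm.trans rel_pt).of_le (s.cg y) h
  have q := Q45_sq G.hh
  have o : Ot (Q45 G.h * G.φ y) := (Q45_ot G.hh).mul (G.ot y)
  have e2 : G.pt.cj _ o = G.cg y := by
    unfold OG.pt; rw [cj_mul]; exact cj_congr (by rw [← mul_assoc, q, one_mul])
  obtain ⟨σ, ε, hε, e3⟩ := s'.E_le (hQ := o) (by rw [e2, e1])
  have hy : G.φ y = Q45 G.h * sp σ ε := by rw [← e3, ← mul_assoc, q, one_mul]
  have c1 : ∀ z a b, G.φ z = O6.dg a b → G.pt.φ (y * z * y⁻¹) = O6.dg (σ a) (σ b) := fun z a b hz => by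
    rw [pt_φ, φ_conj, hy, hz, transpose_mul, Q45_tr, ← sp_dg σ hε]
    calc _ = (Q45 G.h * Q45 G.h) * (sp σ ε * O6.dg a b * (sp σ ε)ᵀ) * (Q45 G.h * Q45 G.h) := by simp only [mul_assoc]
      _ = _ := by simp [q]
  have sy : ∀ a, σ (pi3 a) = pi3 (σ a) := fun a => by
    obtain ⟨z, hz⟩ := s.dg a (pi3 a)
    have : y⁻¹ * z * y ∈ G.E := cg_E.1 (e1 ▸ mo_dg (pt_dg hz))
    have := conj_E h2 this
    rw [show y * y * (y⁻¹ * z * y) * (y * y)⁻¹ = y * z * y⁻¹ by group] at this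
    refine vb_one _ _ (σ.injective.ne ((by decide : ∀ a, a ≠ pi3 a) a)) (Mo.uniq ?_ this)
    simpa only [pt_pt] using pt_dg_Mo (c1 z _ _ hz)
  have c2 : ∀ z a, G.φ z = O6.dg a (pi3 a) → G.φ (y * z * y⁻¹) = O6.dg (σ a) (pi3 (σ a)) := fun z a hz =>
    pt_dg' (by rw [c1 z _ _ hz, sy])
  rcases syn_rep σ (Equiv.ext sy) with ⟨ν, a, b, β, v, r, e⟩ | ⟨p, n⟩
  · exact s.sw s'.vx hε hy v r e
  · obtain ⟨z, hz⟩ := s.dg 0 (pi3 0)
    have c3 := c2 _ _ (c2 _ _ (c2 _ _ hz))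
    rw [← sy, ← sy, ← sy] at c3
    have c4 : Commute (y ^ 3) z := by
      have := G.inj (c3.trans ((Pr.dg p).trans hz.symm))
      rw [Commute, SemiconjBy, ← mul_inv_eq_iff_eq_mul]; refine Eq.trans ?_ this; simp [pow_succ, mul_assoc]
    obtain ⟨m, hm⟩ := exists_pow_eq_self_of_coprime (x := y) (n := 3)
      (Nat.Coprime.coprime_dvd_right (orderOf_dvd_of_pow_eq_one hk) (Nat.Coprime.pow_right k (by decide)))
    have c5 := c2 _ _ hz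
    rw [← hm, (c4.pow_left m).eq, mul_inv_cancel_right, hz, ← sy] at c5
    exact n (pr_of_dg G.two (by decide) c5.symm)

theorem St.ne [Finite Γ] (s : G.St) : G.NE := fun S hS hE => by
  by_contra n
  obtain ⟨y, hy, n1, h2, h3⟩ := step hS (inf_le_left (b := G.M)) fun h => n (h.trans inf_le_right)
  have le : (G.cg y).E ≤ G.M := fun x hx => by
    have := h3 _ ⟨hE (cg_E.1 hx), E_le_M (cg_E.1 hx)⟩
    simpa [mul_assoc] using this.2
  rcases (rel_cg y).cl s (s.cg y) le with c | ⟨τ, c⟩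
  · exact n1 ⟨hy, s.mem_M' c⟩
  · obtain ⟨k, hk⟩ := hS ⟨y, hy⟩
    exact (rl_St.2 s).swp (congrArg Subtype.val hk) (by rwa [rl_cg_E]) (by rw [rl_M]; exact h2.2)

theorem St.not_le (s : G.pt.St) : ¬ G.pt.E ≤ G.E := fun h => by
  obtain ⟨x, hx, m⟩ := s.ex_v4 (σ := swap 0 1 * swap 2 3) (.inr (.inl rfl))
  exact absurd (m.uniq (h hx)) (by decide)

theorem syn_E {τ : P6} (s : G.St) (s' : (G.rl τ).pt.St) (h : Syn τ) : (G.rl τ).pt.E ≤ G.pt.E := by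
  obtain ⟨c, d, e⟩ := (syn_v4 τ).1 h
  obtain ⟨x, hx, m⟩ := s'.ex_v4 (vb_v4 c d)
  exact ((rel_rl τ).trans rel_pt).cl0 s s' (ptE_le.trans (by rw [rl_M])) hx (e ▸ rl_Mo.1 m)

theorem St.wc0 [Finite Γ] (s : G.St) {g : Γ} (h : (G.cg g).E ≤ G.pt.E) : False := by
  obtain ⟨s', e1, e2⟩ := ((rel_cg g).symm.trans rel_pt).of_le (s.cg g) h
  obtain ⟨S, hS⟩ := (E_pgroup (G := G).to_sup_of_normal_left' (E_pgroup (G := G.pt)) fun x hx =>
    MH.mem_Nm fun y hy => conj_E (ptE_le hx) hy).exists_le_sylow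
  have m1 := s.ne S S.isPGroup' (le_sup_left.trans hS)
  have m2 := s'.ne S S.isPGroup' (le_sup_right.trans hS)
  obtain ⟨R, hR, le, n, hn, c⟩ := conj_in S.isPGroup' (S.isPGroup'.map (MulAut.conj g).toMonoidHom) m2 (by
    rintro _ ⟨x, hx, rfl⟩; rw [e2, cg_M]; simpa [mul_assoc] using m1 hx)
  obtain rfl := S.is_maximal' hR le
  obtain ⟨y, hy⟩ : ∃ y, y = n * g := ⟨_, rfl⟩
  have c1 : ∀ x ∈ (S : Subgroup Γ), y * x * y⁻¹ ∈ (S : Subgroup Γ) := fun x hx => by simpa [hy, mul_assoc] using c _ ⟨x, hx, rfl⟩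
  have c2 : ∀ x, x ∈ G.E ↔ y * x * y⁻¹ ∈ G.pt.E := fun x => by
    refine ⟨fun hx => by simpa [hy, mul_assoc] using conj_E hn (h (mem_cg hx)), fun hx => ?_⟩
    have := conj_E (G.pt.M.inv_mem hn) hx
    rw [e1, cg_E] at this; simpa [hy, mul_assoc] using this
  have r : Rel G (G.pt.cg y) := rel_pt.trans (rel_cg y)
  rcases r.cl s (s'.cg y) (fun x hx => m1 (by simpa [mul_assoc] using c1 _ (hS (mem_sup_right (cg_E.1 hx))))) with
    c3 | ⟨τ, c3⟩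
  · have c4 : y * y ∈ G.M := s.mem_M' fun x hx => by
      simpa [mul_assoc] using c3 (mem_cg ((c2 _).1 (cg_E.1 hx)))
    obtain ⟨k, j, ⟨i, rfl⟩, hk⟩ := Nat.exists_eq_two_pow_mul_odd (orderOf_pos y).ne'
    have := m1 (MH.mem_sylow_of_Nm S (k := k) (z := y ^ (2 * i + 1)) (by rw [← pow_mul, mul_comm, ← hk, pow_orderOf_eq_one])
      (pow_mem (MH.mem_Nm c1) _))
    rw [pow_succ, pow_mul, pow_two, G.M.mul_mem_cancel_left (pow_mem c4 i)] at this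
    exact s'.not_le fun x hx => by
      simpa [mul_assoc] using conj_E this ((c2 (y⁻¹ * x * y)).2 (by simpa [mul_assoc] using hx))
  · obtain ⟨s'', e3, -⟩ := (r.symm.trans ((rel_rl τ).trans rel_pt)).of_le (s'.cg y) c3
    by_cases sy : Syn τ
    · exact s'.not_le fun x hx => (c2 x).2 (syn_E s s'' sy (c3 (mem_cg hx)))
    · obtain ⟨a, b, c, d, n1, n2⟩ := (syn_v4 τ).2 sy
      obtain ⟨x, hx, mx⟩ := s'.ex_v4 (vb_v4 a b)
      obtain ⟨w, hw, mw⟩ := s''.ex_v4 (vb_v4 c d)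
      obtain ⟨k, hk⟩ := S.isPGroup' ⟨x * w, S.mul_mem (hS (mem_sup_right hx)) (by
        rw [e3] at hw; simpa [mul_assoc] using c1 _ (hS (mem_sup_right (cg_E.1 hw))))⟩
      have := ((mx.mul (rl_Mo.1 mw)).pow (2 ^ k)).uniq ((show (x * w) ^ 2 ^ k = 1 from congrArg Subtype.val hk).symm ▸ Mo.one)
      refine n1 (n2.elim (fun e => ?_) fun e => ?_) <;>
      simpa [Nat.Coprime.gcd_eq_one (Nat.Coprime.pow_left k (by decide : Nat.Coprime 2 3)),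
        Nat.Coprime.gcd_eq_one (Nat.Coprime.pow_left k (by decide : Nat.Coprime 2 5))] using pow_gcd_eq_one.2 ⟨this, e⟩

theorem St.wc [Finite Γ] (s : G.St) (g : Γ) (h : (G.cg g).E ≤ G.M) : g ∈ G.M := by
  rcases (rel_cg g).cl s (s.cg g) h with c | ⟨τ, c⟩
  · exact s.mem_M' c
  · exact ((rl_St.2 s).wc0 (by rwa [rl_cg_E])).elim

theorem St.fus [Finite Γ] (s : G.St) : G.FUS := fun z hz _ g hg => by
  obtain ⟨R, hR, le, n, hn, c⟩ := conj_in (H := MH.Cn (g * z * g⁻¹)) (E_pgroup (G := G)) (E_pgroup (G := G.cg g))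
    (fun x hx => MH.mem_Cn.2 (E_comm hg hx)) fun x hx => MH.mem_Cn.2 (E_comm (mem_cg hz) hx)
  refine ⟨n * g, s.wc _ fun x hx => s.ne R hR le ?_, ?_⟩
  · simpa [mul_assoc] using c (n⁻¹ * x * n) (cg_E.2 (by simpa [mul_assoc] using cg_E.1 hx))
  · rw [← mul_inv_cancel_right (g * z * g⁻¹) n, MH.mem_Cn.1 hn]; group

theorem St.fus' [Finite Γ] (s : G.St) {z g : Γ} {a b c d : Fin 6} (ab : a ≠ b) (hz : G.φ z = O6.dg a b)
    (hg : G.φ (g * z * g⁻¹) = O6.dg c d) : ∃ σ ∈ G.X, Pr σ a b c d := by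
  obtain ⟨n, ⟨σ, m⟩, e⟩ := s.fus z (mo_dg hz) (bi_dg ab hz) g (mo_dg hg)
  exact ⟨σ, ⟨n, m⟩, pr_of_dg G.two ab (by rw [← m.dg hz, e, hg])⟩

end OG

end Cfsg.Agent.O6
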