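import Cfsg.Agent.O6.R7
import Cfsg.Agent.O6.P4

/-! The dichotomy for centralisers of bireflections. -/

set_option autoImplicit false

namespace Cfsg.Agent.O6

open Matrix Equiv Subgroup

variable {Γ K : Type*} [Group Γ] [Field K]

theorem mono_of {u : W K} (hu : u ⬝ᵥ u = 1) {i j : Fin 6} (ij : i ≠ j) (h0 : ∀ m, m ≠ i → m ≠ j → u m = 0)
    (h : u i = 0 ∨ u j = 0 ∨ 2 * (u i * u i) = 1) (l : Fin 6) : ∃ k, rf u *ᵥ e l = e k ∨ rf u *ᵥ e l = -e k := by
  have s : u i * u i + u j * u j = 1 := by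
    rw [← hu, dotProduct, Fintype.sum_eq_add i j ij fun m hm => by rw [h0 m hm.1 hm.2, zero_mul]]
  have k : ∀ k, (∀ m, m ≠ k → (e l m : K) - 2 * u l * u m = 0) → ∃ k, rf u *ᵥ e l = e k ∨ rf u *ᵥ e l = -e k := fun k h =>
    ⟨k, unit_e (by rw [rf_dot hu, ee]) fun m hm => by rw [rf_e_apply hu, h m hm]⟩
  by_cases c : u l = 0
  · exact k l fun m hm => by simp [c, e_ne hm]
  rcases h with h | h | h
  · refine k l fun m hm => ?_
    by_cases d : m = j
    · by_cases d' : l = i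
      · exact absurd (d' ▸ h) c
      · exact absurd (h0 l d' (d ▸ hm.symm)) c
    · rw [e_ne hm]; by_cases d' : m = i <;> simp [d', h, h0 m, d]
  · refine k l fun m hm => ?_
    by_cases d : m = i
    · by_cases d' : l = j
      · exact absurd (d' ▸ h) c
      · exact absurd (h0 l (d ▸ hm.symm) d') c
    · rw [e_ne hm]; by_cases d' : m = j <;> simp [d', h, h0 m, d]
  · by_cases d : l = i
    · subst d
      refine k j fun m hm => ?_
      by_cases d : m = l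
      · rw [d, e_self]; linear_combination -h
      · simp [e_ne d, h0 m d hm]
    · obtain rfl : l = j := by_contra fun d' => c (h0 l d d')
      refine k i fun m hm => ?_
      by_cases d : m = l
      · rw [d, e_self]; linear_combination h - 2 * s
      · simp [e_ne d, h0 m hm d]

theorem dg_dot {k l : Fin 6} (kl : k ≠ l) (u : W K) : u ⬝ᵥ (dg k l *ᵥ u) = u ⬝ᵥ u - 2 * (u k * u k + u l * u l) := by
  rw [← rf_e2, ← mulVec_mulVec, rf_unit (ee l), rf_unit (ee k)]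
  simp [e_ne kl, e_ne kl.symm]; ring

theorem cls (two : (2 : K) ≠ 0) {u : W K} (hu : u ⬝ᵥ u = 1) (h0 : ∀ m, m < 2 → u m = 0)
    (h : ∀ k l, ¬ k < 2 → ¬ l < 2 → k ≠ l → dg k l *ᵥ u = u ∨ dg k l *ᵥ u = -u ∨ 2 * (u k * u k + u l * u l) = 1) :
    (∀ k, ¬ k < 2 → 4 * (u k * u k) = 1) ∨ ∀ l, ∃ k, rf u *ᵥ e l = e k ∨ rf u *ᵥ e l = -e k := by
  have p : ∀ k l, k ≠ l → dg k l *ᵥ u = u → u k = 0 := fun k l kl c => by
    have := congrFun c k
    rw [dg_mulVec, sg2, if_pos rfl, if_neg kl] at this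
    exact mul_left_cancel₀ two (by linear_combination -this)
  have n : ∀ k l m, m ≠ k → m ≠ l → dg k l *ᵥ u = -u → u m = 0 := fun k l m mk ml c => by
    have := congrFun c m
    rw [dg_mulVec, sg2, if_neg mk, if_neg ml, Pi.neg_apply] at this
    exact mul_left_cancel₀ two (by linear_combination this)
  by_cases c : ∀ k l, ¬ k < 2 → ¬ l < 2 → k ≠ l → 2 * (u k * u k + u l * u l) = 1
  · refine .inl fun k hk => ?_
    obtain ⟨l, hl, lk, -⟩ := ex_third k k
    obtain ⟨m, hm, mk, ml⟩ := ex_third k l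
    linear_combination c k l hk hl lk.symm + c k m hk hm mk.symm - c l m hl hm ml.symm
  push Not at c
  obtain ⟨k, l, hk, hl, kl, c⟩ := c
  obtain ⟨i, j, ij, hi, h1⟩ : ∃ i j, i ≠ j ∧ ¬ i < 2 ∧ ∀ m, m ≠ i → m ≠ j → u m = 0 := by
    rcases h k l hk.not_gt hl.not_gt kl with d | d | d
    · obtain ⟨i, j, ij, hi, -, q⟩ := ex_rest k l hk.not_gt hl.not_gt kl
      refine ⟨i, j, ij, hi, fun m a b => ?_⟩
      rcases q m a b with r | rfl | rfl
      exacts [h0 m r, p _ _ kl d, p _ _ kl.symm (dg_comm (K := K) _ _ ▸ d)]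
    · exact ⟨k, l, kl, hk.not_gt, fun m a b => n k l m a b d⟩
    · exact absurd d c
  obtain ⟨m, hm, mi, mj⟩ := ex_third i j
  refine .inr (mono_of hu ij h1 ?_)
  rcases h i m hi hm mi.symm with d | d | d
  exacts [.inl (p _ _ mi.symm d), .inr (.inl (n _ _ j ij.symm mj.symm d)), .inr (.inr (by simpa [h1 m mi mj] using d))]

namespace OG

variable {G : OG Γ K}

theorem blk {z g : Γ} (hz : G.φ z = dg 0 1) (c : g * z = z * g) {i j : Fin 6} (h : ¬ (i < 2 ↔ j < 2)) : (G.φ g *ᵥ e j) i = 0 := by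
  have := congrFun (congrFun (congrArg G.φ c) i) j
  rw [map_mul, map_mul, hz, O6.dg, sp_mul_left, sp_mul_right] at this
  rw [mulVec_e]
  refine mul_left_cancel₀ G.two ?_
  fin_cases i <;> fin_cases j <;> first | exact absurd (by decide) h | (simp [sg2] at this ⊢; grind)

theorem St.rtA (s : G.St) {u : W K} (hu : u ⬝ᵥ u = 1) (h : G.B (e 0) u) (h0 : ∀ m, ¬ m < 2 → u m = 0) : ∃ i, u = e i ∨ u = -e i := by
  rcases s.pat hu h with c | ⟨a, b, -, -, c⟩ | ⟨i, j, k, t, ij, ik, jk, -, c⟩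
  · exact c
  · obtain ⟨m, hm, ma, mb⟩ := ex_third a b
    exact absurd ((c m).1 (h0 m hm)) (by simp [ma, mb])
  · have : ∀ l, l = i ∨ l = j ∨ l = k → l < 2 := fun l hl => by_contra fun n => (c l).2 hl (h0 l n)
    have a := this i (by simp); have b := this j (by simp); have d := this k (by simp)
    omega

theorem St.yb_of (s : G.St) {a u : W K} (h : G.B a u) (ha : a ⬝ᵥ a = 1) (a0 : ∀ m, ¬ m < 2 → a m = 0)
    (u0 : ∀ m, m < 2 → u m = 0) (u1 : ∀ k, ¬ k < 2 → 4 * (u k * u k) = 1) : G.Yb 0 1 := by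
  obtain ⟨q, hq, q2⟩ := ex_half G.two
  have k : ∀ k, ¬ k < 2 → 2 * u k * (2 * u k) = 1 := fun k hk => by linear_combination u1 k hk
  have k2 := k 2 (by decide); have k3 := k 3 (by decide); have k4 := k 4 (by decide); have k5 := k 5 (by decide)
  obtain ⟨x, hx⟩ := s.exE (ε := ![2 * u 2 * (2 * u 3) * (2 * u 4) * (2 * u 5), 1, 2 * u 2, 2 * u 3, 2 * u 4, 2 * u 5])
    (sg_of_sq fun i => by fin_cases i <;> simp <;> grind) (by simp [Fin.prod_univ_six]; grind)
  rw [dot6, a0 2 (by decide), a0 3 (by decide), a0 4 (by decide), a0 5 (by decide)] at ha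
  refine ⟨2 * u 2 * (2 * u 3) * (2 * u 4) * (2 * u 5) * a 0, a 1, by grind, ?_⟩
  convert h.act hx using 1
  · rw [pv_eq]; ext i; rw [sp_mulVec']; fin_cases i <;> simp [a0]
  · rw [yv01 hq]; ext i; rw [sp_mulVec']; fin_cases i <;> simp [u0] <;> grind

theorem St.cg_le (s : G.St) {g : Γ} (h : ∀ j z, G.φ z = O6.dg 0 j → g * z * g⁻¹ ∈ G.M) : (G.cg g).E ≤ G.M := fun x hx => by
  have k : ∀ y a b, G.φ y = O6.dg a b → g * y * g⁻¹ ∈ G.M := fun y a b hy => by
    obtain ⟨z, hz⟩ := s.dg 0 a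
    obtain ⟨w, hw⟩ := s.dg 0 b
    obtain rfl : y = z * w := G.inj (by
      rw [map_mul, hy, hz, hw, O6.dg, O6.dg, O6.dg, sp_mul, mul_one]; congr 1; ext i
      have : sg2 0 a i * sg2 0 b i = (sg2 a b i : K) := by simp only [sg2]; split_ifs <;> simp
      exact this.symm)
    simpa [mul_assoc] using G.M.mul_mem (h _ _ hz) (h _ _ hw)
  rcases E_cases (cg_E.1 hx) with c | c | ⟨a, b, -, c | c⟩
  · rw [show x = 1 by simpa [mul_assoc, inv_mul_eq_iff_eq_mul] using c]; exact G.M.one_mem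
  · rw [show x = G.m by rw [mul_assoc, inv_mul_eq_iff_eq_mul, ← G.m_comm] at c; exact mul_right_cancel c]
    exact E_le_M m_mem_E
  · simpa [mul_assoc] using k _ _ _ c
  · have := k _ _ _ c
    rw [← mul_assoc g, ← G.m_comm] at this
    simpa [mul_assoc, G.M.mul_mem_cancel_left (E_le_M m_mem_E)] using this

theorem St.dich0 [Finite Γ] (s : G.St) (nH : ∀ i j k, G.Hs i j k → i = 0 ∨ i = 1 ∨ j = 0 ∨ j = 1 ∨ k = 0 ∨ k = 1)
    (nY : ¬ G.Yb 0 1) : G.Good 0 1 := fun z g hz c => by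
  have rtU : ∀ u : W K, u ⬝ᵥ u = 1 → G.B (e 0) u → (∀ m, m < 2 → u m = 0) → ∃ i, u = e i ∨ u = -e i := fun u hu h h0 => by
    rcases s.pat hu h with c | ⟨a, b, -, y, c⟩ | ⟨i, j, k, t, ij, ik, jk, y, c⟩
    · exact c
    · rcases (c 0).1 (h0 0 (by decide)) with rfl | rfl <;> rcases (c 1).1 (h0 1 (by decide)) with d | d
      exacts [absurd d (by decide), absurd ((d ▸ y).yb s) nY, absurd ((d ▸ y).symm.yb s) nY, absurd d (by decide)]
    · have a := mt (c 0).2 (not_not.2 (h0 0 (by decide)))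
      have b := mt (c 1).2 (not_not.2 (h0 1 (by decide)))
      have := nH i j k ⟨ij, ik, jk, t, y⟩
      grind
  have cE : ∀ x ∈ G.E, g * x * g⁻¹ * z = z * (g * x * g⁻¹) ∧ g⁻¹ * x * g * z = z * (g⁻¹ * x * g) := fun x hx => by
    have a : Commute g z := c
    have b : Commute x z := E_comm hx (mo_dg hz)
    exact ⟨(a.mul_left b).mul_left a.inv_left, (a.inv_left.mul_left b).mul_left a⟩
  refine s.wc g (s.cg_le fun j w hw => ?_)
  by_cases hj : j < 2
  · obtain rfl | rfl : j = 0 ∨ j = 1 := by omega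
    · rw [show w = 1 from G.inj (by rw [hw, ← rf_e2, rf_sq (ee' 0), map_one])]; simp
    · rw [G.inj (hw.trans hz.symm), c, mul_inv_cancel_right]; exact E_le_M (mo_dg hz)
  have hu : (G.φ g *ᵥ e j) ⬝ᵥ (G.φ g *ᵥ e j) = 1 := by rw [(G.ot g).dot, ee]
  have a0 : ∀ m, ¬ m < 2 → (G.φ g *ᵥ e 0) m = 0 := fun m hm => blk hz c (by simp [hm])
  have u0 : ∀ m, m < 2 → (G.φ g *ᵥ e j) m = 0 := fun m hm => blk hz c (by simp [hm, hj])
  rcases cls G.two hu u0 (fun k l hk hl kl => by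
    obtain ⟨y, hy⟩ := s.dg k l
    have e0 : G.φ (g⁻¹ * y * g) *ᵥ e 0 = e 0 := by
      have : O6.dg k l *ᵥ G.φ g *ᵥ e 0 = G.φ g *ᵥ e 0 := funext fun m => by
        rw [dg_mulVec]; by_cases d : m < 2
        · rw [sg2, if_neg (by omega), if_neg (by omega), one_mul, one_mul]
        · simp [a0 m d]
      rw [map_mul, map_mul, ← mulVec_mulVec, ← mulVec_mulVec, hy, this, mulVec_mulVec, ← map_mul]; simp
    obtain ⟨i, hi⟩ := rtU (G.φ (g⁻¹ * y * g) *ᵥ e j) (by rw [(G.ot _).dot, ee]) (e0 ▸ (s 0 j).conj _)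
      fun m hm => blk hz (cE y (mo_dg hy)).2 (by simp [hm, hj])
    have e1 : O6.dg k l *ᵥ G.φ g *ᵥ e j = G.φ g *ᵥ G.φ (g⁻¹ * y * g) *ᵥ e j := by
      rw [← hy, mulVec_mulVec, mulVec_mulVec, ← map_mul, ← map_mul]; simp [mul_assoc]
    by_cases d : j = i
    · subst d; rw [e1]; rcases hi with hi | hi <;> rw [hi]
      exacts [.inl rfl, .inr (.inl (mulVec_neg _ _))]
    · have := dg_dot kl (G.φ g *ᵥ e j)
      rw [e1, (G.ot g).dot, hu] at this
      refine .inr (.inr ?_)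
      rcases hi with hi | hi <;> rw [hi] at this <;> simp only [dotProduct_neg, dot_e, e_ne (Ne.symm d), neg_zero] at this <;> linear_combination this) with d | d
  · exact absurd (s.yb_of ((s 0 j).conj g) (by rw [(G.ot g).dot, ee]) a0 u0 d) nY
  have e1 : G.φ (g * w * g⁻¹) = rf (G.φ g *ᵥ e 0) * rf (G.φ g *ᵥ e j) := by rw [φ_conj, hw, (G.ot g).rf2, rf_e2]
  have k : ∀ l, ¬ l < 2 → ∃ i, G.φ (g * w * g⁻¹) *ᵥ e l = e i ∨ G.φ (g * w * g⁻¹) *ᵥ e l = -e i := fun l hl => by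
    obtain ⟨i, hi⟩ := d l
    have : ¬ i < 2 := fun n => by
      have := rf_e_apply hu l i
      rw [u0 i n, e_ne (by omega : i ≠ l)] at this
      rcases hi with hi | hi <;> simp [hi, e_self] at this
    refine ⟨i, ?_⟩
    rw [e1, ← mulVec_mulVec]
    rcases hi with hi | hi <;> simp [hi, mulVec_neg, rf_perp (show (G.φ g *ᵥ e 0) ⬝ᵥ e i = 0 by simp [a0 i this])]
  refine mem_M_of fun l => ?_
  by_cases hl : l < 2
  · obtain ⟨i, hi⟩ := k 2 (by decide)
    refine s.rtA (by rw [(G.ot _).dot, ee]) ?_ fun m hm => blk hz (cE w (mo_dg hw)).1 (by simp [hm, hl])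
    have := ((s 2 l).conj (g * w * g⁻¹))
    rcases hi with hi | hi <;> rw [hi] at this
    exacts [s.base this, s.base (by simpa using this.neg_left)]
  · exact k l hl

theorem St.dich [Finite Γ] (s : G.St) {a b : Fin 6} (ab : a ≠ b)
    (nH : ∀ i j k, G.Hs i j k → i = a ∨ i = b ∨ j = a ∨ j = b ∨ k = a ∨ k = b) (nY : ¬ G.Yb a b) : G.Good a b := by
  obtain ⟨τ, rfl, rfl⟩ := ex2 ab
  exact rl_Good.1 ((rl_St.2 s).dich0 (fun i j k h => by simpa using nH _ _ _ ((rl_Hs s).1 h)) (mt rl_Yb.1 nY))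

end OG

end Cfsg.Agent.O6
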