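import Cfsg.Agent.O6.R8
import Cfsg.Agent.H2.MN
import Cfsg.Agent.H5.ZStar

/-! No bad bireflections. -/

set_option autoImplicit false

namespace Cfsg.Agent.O6

open Matrix Equiv Subgroup

variable {Γ K : Type*} [Group Γ] [Field K]

theorem comm_conj [Finite Γ] {z y : Γ} (hz : z * z = 1) (hy : y * y = 1) (h : ¬ Odd (orderOf (z * y))) :
    ∃ w, w ≠ z ∧ w * z = z * w ∧ (IsConj z w ∨ IsConj y w) := by
  obtain ⟨k, hk⟩ := Nat.not_odd_iff_even.1 h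
  have p := orderOf_pos (z * y)
  have d := H2.MN.dih hz hy
  have e1 : (z * y) ^ k * (z * y) ^ k = 1 := by rw [← pow_add, ← hk, pow_orderOf_eq_one]
  refine ⟨z * (z * y) ^ k, fun e => pow_ne_one_of_lt_orderOf (x := z * y) (n := k) (by omega) (by omega) (by simpa using e), ?_, ?_⟩
  · rw [mul_assoc]; congr 1
    rw [← mul_one (_ * z), ← e1, ← mul_assoc, d]
  · have q : ∀ j i, z * (z * y) ^ (j + i + j) = ((z * y) ^ j)⁻¹ * (z * (z * y) ^ i) * ((z * y) ^ j)⁻¹⁻¹ := fun j i => by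
      rw [inv_inv, mul_assoc, eq_inv_mul_iff_mul_eq, pow_add, pow_add, ← mul_assoc, ← mul_assoc, ← mul_assoc, d]
    obtain ⟨j, rfl | rfl⟩ := Nat.even_or_odd' k
    · exact .inl (isConj_iff.2 ⟨((z * y) ^ j)⁻¹, by rw [show 2 * j = j + 0 + j by ring, q, pow_zero, mul_one]⟩)
    · exact .inr (isConj_iff.2 ⟨((z * y) ^ j)⁻¹, by rw [show 2 * j + 1 = j + 1 + j by ring, q, pow_one, ← mul_assoc z, hz, one_mul]⟩)

namespace OG

variable {G : OG Γ K}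

theorem notE : ¬ ∀ x, x ∈ G.E := fun h => by
  obtain ⟨x, h1, -⟩ := G.irr e fun i j => by simp [e_apply, eq_comm]
  obtain ⟨ε, -, hx⟩ := h x
  exact h1 (by simp only [hx, rf_e, sp_mul]; congr 1; ext i; exact mul_comm _ _)

theorem Bi.ex_comm [Finite Γ] {z : Γ} (b : G.Bi z) (hz : z ∈ G.E) : ∃ w, w ≠ z ∧ w * z = z * w ∧ IsConj z w := by
  by_cases h : ∀ g, Odd (orderOf (z * (g * z * g⁻¹)))
  · exfalso
    obtain ⟨N, hN, ho, h⟩ := H5.ZStar.zstar' b.1 h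
    have k : ∀ x ∈ N, x * x = 1 → x = 1 := fun x hx h1 => orderOf_eq_one_iff.1 (Nat.eq_one_of_dvd_coprimes
      (Nat.coprime_two_left.2 ho) (orderOf_dvd_of_pow_eq_one (by rw [pow_two, h1])) (MH.orderOf_dvd_card_of_mem hx))
    rcases G.simp N hN with c | c
    · have c1 : ∀ g, g * z * g⁻¹ = z := fun g => by
        have := k _ (h _ _ (isConj_iff.2 ⟨g, rfl⟩) (.refl _)) (by
          rcases c _ (h _ _ (isConj_iff.2 ⟨g, rfl⟩) (.refl _)) with e | e <;> simp [e, G.m_sq])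
        rw [eq_inv_of_mul_eq_one_left this, inv_eq_of_mul_eq_one_left b.1]
      rcases G.simp (zpowers z) ⟨by rintro _ ⟨n, rfl⟩ g; exact ⟨n, by simp [← conj_zpow, c1]⟩⟩ with d | d
      · exact (d z (mem_zpowers z)).elim b.ne_one b.ne_m
      · refine notE (G := G) fun x => (d x).elim (fun e => zpowers_le.2 hz e) fun e => ?_
        exact (G.E.mul_mem_cancel_left m_mem_E).1 (zpowers_le.2 hz e)
    · refine (c z).elim (fun e => b.ne_one (k z e b.1)) fun e => b.ne_m ?_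
      have := k _ e (E_sq (G.E.mul_mem m_mem_E hz))
      rw [eq_inv_of_mul_eq_one_right this, inv_eq_of_mul_eq_one_left G.m_sq]
  · push Not at h
    obtain ⟨g, h⟩ := h
    obtain ⟨w, h1, h2, h3⟩ := comm_conj b.1 (b.conj g).1 h
    exact ⟨w, h1, h2, h3.elim id (isConj_iff.2 ⟨g, rfl⟩).trans⟩

theorem St.ex_fused [Finite Γ] (s : G.St) {z : Γ} (b : G.Bi z) (hz : z ∈ G.E) :
    ∃ t ∈ G.M, t ≠ z ∧ t * z = z * t ∧ IsConj z t := by
  obtain ⟨w, h1, h2, h3⟩ := b.ex_comm hz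
  obtain ⟨g, rfl⟩ := isConj_iff.1 h3
  obtain ⟨R, hR, le, n, hn, c⟩ := conj_in (H := MH.Cn z) (E_pgroup (G := G))
    (MH.isPGroup_zpowers (k := 1) (by simpa [pow_two] using (b.conj g).1))
    (fun x hx => MH.mem_Cn.2 (E_comm hz hx)) (zpowers_le.2 (MH.mem_Cn.2 h2.symm))
  have cn : Commute z n := MH.mem_Cn.1 hn
  refine ⟨_, s.ne R hR le (c _ (mem_zpowers _)), fun e => h1 ?_,
    (cn.symm.mul_left h2).mul_left cn.symm.inv_left, h3.trans (isConj_iff.2 ⟨n, rfl⟩)⟩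
  rw [mul_inv_eq_iff_eq_mul, cn.eq] at e
  exact mul_left_cancel e

theorem St.coset (s : G.St) {t u : Γ} (ht : G.Mo t (swap 2 3 * swap 4 5)) (hu : G.Mo u (swap 2 3 * swap 4 5)) (bt : G.Bi t)
    (bu : G.Bi u) : IsConj t u := by
  have k : ∀ t ε, Sg ε → G.φ t = sp (swap 2 3 * swap 4 5) ε → G.Bi t → ε 0 = 1 ∧ ε 1 = 1 ∧ ε 3 = ε 2 ∧ ε 5 = ε 4 :=
    fun t ε hε e b => by
      have a : ε 3 = ε 2 := sq_eps hε e b.1 2
      have c : ε 5 = ε 4 := sq_eps hε e b.1 4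
      have p := third hε (by simpa using sign_of e)
      rw [a, c, hε.sq, hε.sq, mul_one] at p
      have d := b.2
      rw [e, Matrix.trace, Fin.sum_univ_six] at d
      simp [sp, swap_apply_def, ← hε.eq p] at d
      have : ε 0 = 1 := mul_left_cancel₀ G.two (by linear_combination d)
      exact ⟨this, hε.eq p ▸ this, a, c⟩
  obtain ⟨ε, hε, e1⟩ := ht
  obtain ⟨η, hη, e2⟩ := hu
  obtain ⟨a0, a1, a2, a3⟩ := k t ε hε e1 bt
  obtain ⟨b0, b1, b2, b3⟩ := k u η hη e2 bu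
  have := hε.sq 2; have := hε.sq 4; have := hη.sq 2; have := hη.sq 4
  obtain ⟨n, hn⟩ := s.exE (ε := ![ε 2 * η 2 * (ε 4 * η 4), 1, 1, ε 2 * η 2, 1, ε 4 * η 4])
    (sg_of_sq fun i => by fin_cases i <;> simp <;> grind) (by simp [Fin.prod_univ_six]; grind)
  refine isConj_iff.2 ⟨n, G.inj ?_⟩
  rw [φ_conj, hn, e1, e2, sp_tr, sp_mul, sp_mul]
  congr 1; ext i; fin_cases i <;> simp [swap_apply_def] <;> grind

theorem Yb.v4 (s : G.St) {a b c d f g : Fin 6} (n : [a, b, c, d, f, g].Nodup) (h : G.Yb a b) : swap c d * swap f g ∈ G.X := by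
  obtain ⟨τ, rfl, rfl, rfl, rfl, rfl, rfl⟩ := ex6 n
  obtain ⟨z, hz⟩ := (rl_St.2 s).dg 2 3
  obtain ⟨w, hw⟩ := (rl_Yb.2 h).fuse hz
  simpa only [← conj_mul, ← swap_apply_apply] using rl_X.1 ⟨_, hw⟩

theorem Yb.share (s : G.St) {a b c : Fin 6} (ab : a ≠ b) (ac : a ≠ c) (bc : b ≠ c) (h : G.Yb a b) (h' : G.Yb a c) : G.Yr a b := by
  obtain ⟨τ, rfl, rfl, rfl⟩ := ex3 ab ac bc
  have s' := rl_St (τ := τ).2 s
  have k := rl_Yb.2 h
  have k' := rl_Yb.2 h'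
  have p := k.v4 s' (c := 3) (d := 4) (f := 2) (g := 5) (by decide)
  have q := k'.v4 s' (c := 3) (d := 4) (f := 1) (g := 5) (by decide)
  have r := k'.v4 s' (c := 1) (d := 3) (f := 4) (g := 5) (by decide)
  refine (rl_Yr s).1 (k.of_3 s' (c := 3) (d := 2) (f := 4) (by decide) ?_)
  convert mul_mem (mul_mem r (mul_mem p q)) r using 1; decide

theorem Yb.of_b' (s : G.St) {a b : Fin 6} (ab : a ≠ b) (h : G.Yb a b) {σ : P6} (hσ : σ ∈ G.X) (h0 : σ a = b) (h1 : σ b = a)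
    (sg : Perm.sign σ = 1) : G.Yr a b := by
  obtain ⟨τ, rfl, rfl⟩ := ex2 ab
  exact (rl_Yr s).1 ((rl_Yb.2 h).of_b (rl_St.2 s) (σ := τ⁻¹ * σ * τ) (rl_X.2 (by simpa [mul_assoc] using hσ)) (by simp [h0])
    (by simp [h1]) (by simp [sg]))

theorem Yr.pr {σ : P6} {a b c d : Fin 6} (h : G.Yr (σ a) (σ b)) (p : Pr σ a b c d) : G.Yr c d := by
  rcases p with ⟨rfl, rfl⟩ | ⟨rfl, rfl⟩
  exacts [h, h.symm]

theorem Yb.pr {σ : P6} {a b c d : Fin 6} (h : G.Yb (σ a) (σ b)) (p : Pr σ a b c d) : G.Yb c d := by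
  rcases p with ⟨rfl, rfl⟩ | ⟨rfl, rfl⟩
  exacts [h, h.symm]

theorem St.starY' (s : G.St) {a b : Fin 6} (h : G.Yr 0 1) (h' : G.Yr a b)
    (c : (a = 0 ∨ a = 1) ∧ b ≠ 0 ∧ b ≠ 1 ∨ (b = 0 ∨ b = 1) ∧ a ≠ 0 ∧ a ≠ 1) : False := by
  rcases c with ⟨rfl | rfl, x, y⟩ | ⟨rfl | rfl, x, y⟩
  exacts [s.starY (by decide) x.symm y.symm h h', s.starY (by decide) y.symm x.symm h.symm h',
    s.starY (by decide) x.symm y.symm h h'.symm, s.starY (by decide) y.symm x.symm h.symm h'.symm]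

theorem Mo.conj_pr {n z w : Γ} {σ : P6} {a b c d : Fin 6} (h : G.Mo n σ) (p : Pr σ a b c d) (hz : G.φ z = O6.dg a b)
    (hw : G.φ w = O6.dg c d) : n * z * n⁻¹ = w := G.inj (by rw [h.dg hz, p.dg, hw])

theorem St.a6 [Finite Γ] (s : G.St) (s' : G.pt.St) (h : G.Yr 0 1) (a6 : ∀ σ : P6, Perm.sign σ = 1 → σ ∈ G.pt.X) : False := by
  have nH : ∀ i j k, ¬ G.pt.Hs i j k := fun i j k h => by
    obtain ⟨l, m, n⟩ := ex_more3 i j k h.1 h.2.1 h.2.2.1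
    simp only [List.nodup_cons, List.mem_cons, List.not_mem_nil, or_false, not_or] at n
    refine h.odd s' (a6 (swap i j * swap l m) (by simp [h.1, n])) ?_ ?_ ?_ <;> simp [swap_apply_def] <;> grind
  have nY : ∀ a b, a ≠ b → ¬ G.pt.Yb a b := fun a b ab h => by
    obtain ⟨c, d, f, n⟩ := ex_more2 a b ab
    have n' := n
    simp only [List.nodup_cons, List.mem_cons, List.not_mem_nil, or_false, not_or] at n'
    have y := h.of_3 s' n (a6 _ (by simp [n']))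
    have y' := y.act s' (a6 (swap b c * swap d f) (by simp [n']))
    rw [show (swap b c * swap d f) a = a by simp [swap_apply_def]; grind,
      show (swap b c * swap d f) b = c by simp [swap_apply_def]; grind] at y'
    exact s'.starY ab (by grind) (by grind) y y'
  obtain ⟨t, ⟨g, w, c, d, cd, hw, rfl⟩, ⟨σ, m⟩, n⟩ := H2.MN.mn s' s'.wc fun a b ab =>
    s'.dich ab (fun i j k h => absurd h (nH i j k)) (nY a b ab)
  have bt := (bi_dg cd hw).conj g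
  obtain ⟨τ, rfl⟩ := (m.inv_cases s' bt.1).resolve_left fun e => n (mem_E.2 (e ▸ m))
  obtain ⟨ρ, e1, e2⟩ := conj_even τ
  obtain ⟨x, mx⟩ := a6 ρ e1
  have m1 := mx.inv.conj m
  rw [e2, show ρ⁻¹ * (ρ * (swap 0 1 * swap 2 3) * ρ⁻¹) * ρ⁻¹⁻¹ = swap 0 1 * swap 2 3 by group] at m1
  obtain ⟨a, b, -, hab⟩ := (pt_Bi.1 (bt.conj x⁻¹)).dg (by simpa only [pt_pt] using m1.nf (.inr (.inl rfl)) (by decide) (bt.conj _).1)
  obtain ⟨ν, e3, p⟩ := ex_even cd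
  obtain ⟨y, my⟩ := a6 ν e3
  obtain ⟨z, hz⟩ := s.dg 0 (pi3 0)
  rw [← my.conj_pr p (pt_dg hz) hw, show x⁻¹ * (g * (y * z * y⁻¹) * g⁻¹) * x⁻¹⁻¹ = x⁻¹ * g * y * z * (x⁻¹ * g * y)⁻¹ by group] at hab m1
  obtain ⟨β, hβ, p⟩ := s.fus' (by decide) hz hab
  exact s.starY' h ((h.act s hβ).pr p) (vb_01 a b 2 3 (by simp) ((pt_dg_Mo hab).uniq m1))

theorem Yr.pt_X' (s : G.St) (h : G.Yr 2 3) : swap 2 3 * swap 0 4 ∈ G.pt.X := by
  have k := ((rl_Yr s (τ := swap 0 2 * swap 1 3) (a := 0) (b := 1)).2 (by simpa [swap_apply_def] using h)).pt_X (rl_St.2 s) (k := 2) (l := 4) (by simp) (by simp)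
  have : (G.rl (swap 0 2 * swap 1 3)).pt = G.pt.rl (swap 0 2 * swap 1 3) := by
    unfold OG.pt OG.rl; rw [cj_mul, cj_mul]
    refine cj_congr (ext_iff_mulVec.2 fun u => ?_)
    rw [← mulVec_mulVec, ← mulVec_mulVec, Q45_mulVec, Q45_mulVec]
    ext i; simp only [sp_mulVec']; fin_cases i <;> simp [swap_apply_def]
  rw [this] at k
  convert rl_X.1 k using 1; decide

theorem St.vx_of {a b : P6} (ha : a ∈ G.X) (hb : b ∈ G.X) (e1 : a = swap 0 1 * swap 4 5) (e2 : b = swap 2 3 * swap 4 5) :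
    VX G.X 1 := by
  rintro _ (rfl | rfl | rfl | rfl) <;> rw [one_mul, inv_one, mul_one]
  exacts [G.X.one_mem, by convert mul_mem ha hb using 1; rw [e1, e2]; decide, e1 ▸ ha, e2 ▸ hb]

theorem St.bad1 [Finite Γ] (A : A6gen) (s : G.St) (h : G.Yb 0 1) {σ : P6} (hσ : σ ∈ G.X) {c d : Fin 6} (cd : c ≠ d)
    (p : Pr σ 0 1 c d) (n : ¬ (c = 0 ∧ d = 1 ∨ c = 1 ∧ d = 0)) : False := by
  have h' := (h.act s hσ (by decide)).pr p
  rcases pair_cases c d cd with k | ⟨a, b, x, ab, ax, bx, k1, k2⟩ | k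
  · exact n k
  · have y1 : G.Yb a b := by rcases k1 with ⟨rfl, rfl⟩ | ⟨rfl, rfl⟩; exacts [h, h.symm]
    have y2 : G.Yb a x := by rcases k2 with ⟨rfl, rfl⟩ | ⟨rfl, rfl⟩; exacts [h', h'.symm]
    exact s.starY ab ax bx (y1.share s ab ax bx y2) (y2.share s ax ab bx.symm y1)
  · obtain ⟨τ, t0, t1, rfl, rfl⟩ := ex4 k
    have s1 := rl_St (τ := τ).2 s
    have y1 : (G.rl τ).Yb 0 1 := rl_Yb.2 (by rwa [t0, t1])
    have y2 : (G.rl τ).Yb 2 3 := rl_Yb.2 h'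
    have a := y2.v4 s1 (c := 0) (d := 1) (f := 4) (g := 5) (by decide)
    have b := y1.v4 s1 (c := 2) (d := 3) (f := 4) (g := 5) (by decide)
    have r1 := y1.of_b s1 a (by decide) (by decide) (by simp)
    have r2 := y2.of_b' s1 (by decide) b (by decide) (by decide) (by simp)
    have s2 := s1.pt (St.vx_of a b rfl rfl)
    exact s1.a6 s2 r1 (A _ (fun k l => r1.pt_X s1) (St.vx (by rwa [pt_pt])) _ (r2.pt_X' s1) 1 4 (by simp) (by decide) (by decide)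
      (by decide))

theorem St.bad0 [Finite Γ] (A : A6gen) (s : G.St) (h : G.Yb 0 1) : False := by
  obtain ⟨z, hz⟩ := s.dg 0 1
  have bz := bi_dg (by decide) hz
  obtain ⟨t, ⟨σ, m⟩, n, c, i⟩ := s.ex_fused bz (mo_dg hz)
  obtain ⟨g, rfl⟩ := isConj_iff.1 i
  have bt := bz.conj g
  rcases stab_inv σ (m.sq bt.1) (s.even ⟨_, m⟩ (m.sq bt.1)) (pr_of_dg G.two (by decide) (by
    rw [← m.dg hz, c, mul_inv_cancel_right, hz])) with rfl | ⟨k, l, a, b, nd, e⟩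
  · obtain ⟨c, d, cd, e⟩ := bt.dg m
    obtain ⟨ρ, hρ, p⟩ := s.fus' (by decide) hz e
    refine s.bad1 A h hρ cd p fun k => n (G.inj ?_)
    rcases k with ⟨rfl, rfl⟩ | ⟨rfl, rfl⟩ <;> rw [e, hz]; exact dg_comm _ _
  obtain ⟨τ, t0, t1, rfl, rfl, rfl, rfl⟩ := ex6 nd
  have s1 := rl_St (τ := τ).2 s
  have y1 : (G.rl τ).Yb 0 1 := rl_Yb.2 (by rwa [t0, t1])
  have hz1 : (G.rl τ).φ z = O6.dg 0 1 := rl_dg.2 (by rwa [t0, t1])
  obtain ⟨u, hu⟩ := s1.dg 2 3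
  obtain ⟨w, hw⟩ := y1.fuse hu
  rcases e with rfl | rfl
  · obtain ⟨x, hx⟩ := isConj_iff.1 ((i.trans (s1.coset (rl_Mo.2 (by simpa only [← conj_mul, ← swap_apply_apply] using m)) hw
      (rl_Bi.2 bt) ((bi_dg (by decide) hu).conj w))).trans (isConj_iff.2 ⟨w, rfl⟩).symm)
    obtain ⟨ρ, hρ, p⟩ := s1.fus' (by decide) hz1 (hx.symm ▸ hu)
    exact s1.bad1 A y1 hρ (by decide) p (by decide)
  · have m1 : (G.rl τ).Mo (g * z * g⁻¹) (swap 0 1 * swap 4 5) :=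
      rl_Mo.2 (by simpa only [← conj_mul, ← swap_apply_apply, t0, t1] using m)
    have r1 := y1.of_b s1 ⟨_, m1⟩ (by decide) (by decide) (by simp)
    have s2 := s1.pt (St.vx_of ⟨_, m1⟩ ⟨_, hw⟩ rfl rfl)
    obtain ⟨a, b, -, e⟩ := (pt_Bi.2 (rl_Bi.2 bt)).dg (m1.nf (.inr (.inr (.inl rfl))) (by decide) bt.1)
    obtain ⟨ρ, hρ, p⟩ := s2.fus' (by decide) (pt_dg (a := 0) hz1) e
    have A' := A _ (fun k l => r1.pt_X s1) (St.vx (by rwa [pt_pt])) _ hρ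
    rcases vb_01 a b 4 5 (by simp) ((by simpa only [pt_pt] using pt_dg_Mo e : (G.rl τ).Mo _ _).uniq m1) with
      ⟨x, y, y'⟩ | ⟨x, y, y'⟩
    exacts [s1.a6 s2 r1 (A' a b x y y' p), s1.a6 s2 r1 (A' b a x y y' (Or.symm p))]

theorem St.bad [Finite Γ] (A : A6gen) (s : G.St) {a b : Fin 6} (ab : a ≠ b) (h : G.Yb a b) : False := by
  obtain ⟨τ, rfl, rfl⟩ := ex2 ab
  exact (rl_St.2 s).bad0 A (rl_Yb.2 h)

theorem St.good [Finite Γ] (A : A6gen) (N : NOH Γ K) (s : G.St) {a b : Fin 6} (ab : a ≠ b) : G.Good a b :=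
  s.dich ab (fun i j k h => absurd h (N G s s.ne s.fus (fun _ _ ab h => s.dich ab h (s.bad A ab))
    (fun _ _ ab h => s.bad A ab (h.yb s)) i j k)) (s.bad A ab)

end OG

end Cfsg.Agent.O6
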